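import Mathlib

set_option autoImplicit false

namespace Cfsg.Agent.Lib.helper22.Coh

open scoped commutatorElement

universe u

section frob

variable {Q : Type u} [Group Q] [Finite Q]

theorem frob_dvd (Kb Nb : Subgroup Q) [Nb.Normal] (hNK : Nb ≤ Kb)
    (hab : ∀ a ∈ Kb, ∀ b ∈ Kb, a * b = b * a)
    (hfr : ∀ c ∈ Kb, c ≠ 1 → ∀ g : Q, g * c = c * g → g ∈ Kb) :
    Kb.index ∣ Nat.card Nb - 1 := by
  classical
  haveI : Fintype Q := Fintype.ofFinite Q
  haveI : ∀ g : ConjAct Q, Fintype (MulAction.fixedBy (↥Nb) g) := fun g => Fintype.ofFinite _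
  haveI : Fintype (Quotient (MulAction.orbitRel (ConjAct Q) (↥Nb))) := Fintype.ofFinite _
  have hB := MulAction.sum_card_fixedBy_eq_card_orbits_mul_card_group (ConjAct Q) (↥Nb)
  have hfix : ∀ g : ConjAct Q, Fintype.card (MulAction.fixedBy (↥Nb) g)
      = if ConjAct.ofConjAct g ∈ Kb then Nat.card Nb else 1 := by
    intro g
    by_cases hg : ConjAct.ofConjAct g ∈ Kb
    · rw [if_pos hg, ← Nat.card_eq_fintype_card]
      have hall : ∀ n : Nb, n ∈ MulAction.fixedBy (↥Nb) g := by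
        intro n
        rw [MulAction.mem_fixedBy]
        apply Subtype.ext
        rw [ConjAct.Subgroup.val_conj_smul, ConjAct.smul_def, hab _ hg _ (hNK n.2)]
        group
      exact Nat.card_congr (Equiv.subtypeUnivEquiv hall)
    · rw [if_neg hg, Fintype.card_eq_one_iff]
      refine ⟨⟨1, ?_⟩, ?_⟩
      · rw [MulAction.mem_fixedBy]
        exact smul_one g
      · rintro ⟨n, hn⟩
        apply Subtype.ext
        rw [MulAction.mem_fixedBy] at hn
        have hn' : ConjAct.ofConjAct g * (n : Q) * (ConjAct.ofConjAct g)⁻¹ = n := by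
          have := congrArg Subtype.val hn
          rwa [ConjAct.Subgroup.val_conj_smul, ConjAct.smul_def] at this
        by_contra hne
        apply hg
        refine hfr (n : Q) (hNK n.2) ?_ _ ?_
        · intro h1
          apply hne
          exact Subtype.ext h1
        · calc ConjAct.ofConjAct g * (n : Q)
              = ConjAct.ofConjAct g * (n : Q) * (ConjAct.ofConjAct g)⁻¹ * ConjAct.ofConjAct g := by
                group
            _ = (n : Q) * ConjAct.ofConjAct g := by rw [hn']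
  have hsum : ∑ g : ConjAct Q, Fintype.card (MulAction.fixedBy (↥Nb) g)
      = ∑ x : Q, (if x ∈ Kb then Nat.card Nb else 1) := by
    rw [← Fintype.sum_equiv ConjAct.toConjAct.toEquiv
      (fun x : Q => if x ∈ Kb then Nat.card Nb else 1)
      (fun g : ConjAct Q => Fintype.card (MulAction.fixedBy (↥Nb) g))]
    intro x
    rw [hfix]
    simp
  rw [hsum, Finset.sum_ite, Finset.sum_const, Finset.sum_const, smul_eq_mul, smul_eq_mul,
    mul_one] at hB
  have hc1 : (Finset.univ.filter (fun x : Q => x ∈ Kb)).card = Nat.card Kb := by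
    rw [Nat.card_eq_fintype_card, Fintype.card_subtype]
  have hc2 := Finset.card_filter_add_card_filter_not (s := (Finset.univ : Finset Q))
    (fun x : Q => x ∈ Kb)
  rw [hc1] at hB hc2
  have hQ : Fintype.card Q = Nat.card Kb * Kb.index := by
    rw [← Nat.card_eq_fintype_card]; exact (Subgroup.card_mul_index Kb).symm
  rw [Finset.card_univ, hQ] at hc2
  have hcardCA : Fintype.card (ConjAct Q) = Nat.card Kb * Kb.index := by
    rw [← hQ]; rfl
  rw [hcardCA] at hB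
  have hk : 0 < Nat.card Kb := Nat.card_pos
  have he : 0 < Kb.index := Nat.pos_of_ne_zero Subgroup.index_ne_zero_of_finite
  have ha : 0 < Nat.card Nb := Nat.card_pos
  obtain ⟨r, hr⟩ : ∃ r, r = Fintype.card (Quotient (MulAction.orbitRel (ConjAct Q) (↥Nb))) :=
    ⟨_, rfl⟩
  rw [← hr] at hB
  obtain ⟨kn, hkn⟩ : ∃ kn, kn = (Finset.univ.filter (fun x : Q => ¬ x ∈ Kb)).card := ⟨_, rfl⟩
  rw [← hkn] at hB hc2
  have h1 : Nat.card Kb * (Nat.card Nb + Kb.index) = Nat.card Kb * (r * Kb.index + 1) := by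
    have : Nat.card Kb * Nat.card Nb + kn = r * (Nat.card Kb * Kb.index) := hB
    nlinarith [this, hc2]
  have h2 : Nat.card Nb + Kb.index = r * Kb.index + 1 := Nat.eq_of_mul_eq_mul_left hk h1
  have hr1 : 1 ≤ r := by
    by_contra h0
    push Not at h0
    have : r = 0 := by omega
    rw [this] at h2
    omega
  refine ⟨r - 1, ?_⟩
  obtain ⟨r', rfl⟩ : ∃ r', r = r' + 1 := ⟨r - 1, by omega⟩
  rw [Nat.add_sub_cancel]
  have h3 : Nat.card Nb + Kb.index = r' * Kb.index + Kb.index + 1 := by rw [h2]; ring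
  have h4 : Nat.card Nb = r' * Kb.index + 1 := by omega
  rw [h4, Nat.add_sub_cancel, mul_comm]

theorem odd_mod_lb (e m : ℕ) (he : Odd e) (hm : Odd m) (h1 : 1 < m) (hdvd : e ∣ m - 1) :
    2 * e + 1 ≤ m := by
  obtain ⟨s, hs⟩ := hdvd
  have hev : Even (m - 1) := by
    obtain ⟨k, hk⟩ := hm
    exact ⟨k, by omega⟩
  rw [hs, Nat.even_mul] at hev
  have hse : Even s := by
    rcases hev with h | h
    · exact absurd h (Nat.not_even_iff_odd.2 he)
    · exact h
  obtain ⟨t, ht⟩ := hse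
  have ht0 : t ≠ 0 := by
    intro h0
    rw [h0] at ht
    rw [ht] at hs
    omega
  have h2 : 2 * e ≤ e * s := by
    rw [ht]
    have : 1 ≤ t := Nat.one_le_iff_ne_zero.2 ht0
    nlinarith
  omega

theorem frob_bound (hodd : Odd (Nat.card Q)) (Kb Nb : Subgroup Q) [Kb.Normal] [Nb.Normal]
    (hNK : Nb ≤ Kb) (hab : ∀ a ∈ Kb, ∀ b ∈ Kb, a * b = b * a)
    (hfr : ∀ c ∈ Kb, c ≠ 1 → ∀ g : Q, g * c = c * g → g ∈ Kb)
    (hN1 : Nb ≠ ⊥) (hN2 : Nb ≠ Kb) : 4 * Kb.index ^ 2 + 1 < Nat.card Kb := by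
  have hd1 := frob_dvd Kb Nb hNK hab hfr
  have hd2 := frob_dvd Kb Kb le_rfl hab hfr
  have he : Odd Kb.index := Odd.of_dvd_nat hodd (Subgroup.index_dvd_card Kb)
  have hq : Odd (Nat.card Kb) := Odd.of_dvd_nat hodd (Subgroup.card_subgroup_dvd_card Kb)
  have hadvd : Nat.card Nb ∣ Nat.card Kb := Subgroup.card_dvd_of_le hNK
  obtain ⟨b, hb⟩ := hadvd
  have ha : Odd (Nat.card Nb) := Odd.of_dvd_nat hq ⟨b, hb⟩
  have hbo : Odd b := Odd.of_dvd_nat hq ⟨Nat.card Nb, by rw [hb, mul_comm]⟩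
  have ha1 : 1 < Nat.card Nb := by
    rw [Subgroup.one_lt_card_iff_ne_bot]; exact hN1
  have hb1 : 1 < b := by
    have hbpos : b ≠ 0 := by
      intro h0
      rw [h0, mul_zero] at hb
      have : 0 < Nat.card Kb := Nat.card_pos
      omega
    have hbne : b ≠ 1 := by
      intro h1
      rw [h1, mul_one] at hb
      exact hN2 (Subgroup.eq_of_le_of_card_ge hNK hb.le)
    omega
  have hamod : Nat.card Nb ≡ 1 [MOD Kb.index] :=
    ((Nat.modEq_iff_dvd' ha1.le).2 hd1).symm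
  have hqpos : 1 ≤ Nat.card Kb := Nat.card_pos
  have hqmod : Nat.card Kb ≡ 1 [MOD Kb.index] :=
    ((Nat.modEq_iff_dvd' hqpos).2 hd2).symm
  have hbmod : b ≡ 1 [MOD Kb.index] := by
    have h1 : Nat.card Nb * b ≡ 1 * b [MOD Kb.index] := Nat.ModEq.mul_right b hamod
    rw [one_mul, ← hb] at h1
    exact h1.symm.trans hqmod
  have hd3 : Kb.index ∣ b - 1 := (Nat.modEq_iff_dvd' hb1.le).1 hbmod.symm
  have hA := odd_mod_lb _ _ he ha ha1 hd1
  have hBb := odd_mod_lb _ _ he hbo hb1 hd3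
  have he0 : 0 < Kb.index := Nat.pos_of_ne_zero Subgroup.index_ne_zero_of_finite
  rw [hb]
  nlinarith [Nat.mul_le_mul hA hBb]

theorem frob_prime_pow (hodd : Odd (Nat.card Q)) (Kb : Subgroup Q) [Kb.Normal]
    (hab : ∀ a ∈ Kb, ∀ b ∈ Kb, a * b = b * a)
    (hfr : ∀ c ∈ Kb, c ≠ 1 → ∀ g : Q, g * c = c * g → g ∈ Kb)
    (hK1 : Kb ≠ ⊥) (hsmall : Nat.card Kb ≤ 4 * Kb.index ^ 2 + 1) :
    ∃ p a : ℕ, p.Prime ∧ Nat.card Kb = p ^ a := by
  have hq1 : 1 < Nat.card Kb := by
    rw [Subgroup.one_lt_card_iff_ne_bot]; exact hK1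
  obtain ⟨p, hp, hpq⟩ := Nat.exists_prime_and_dvd (show Nat.card Kb ≠ 1 by omega)
  haveI : Fact p.Prime := ⟨hp⟩
  obtain ⟨P⟩ : Nonempty (Sylow p ↥Kb) := inferInstance
  have hPn : (P : Subgroup ↥Kb).Normal := by
    refine ⟨fun n hn g => ?_⟩
    have hcomm : g * n * g⁻¹ = n := by
      apply Subtype.ext
      simp only [Subgroup.coe_mul, Subgroup.coe_inv]
      rw [hab _ g.2 _ n.2]
      group
    rw [hcomm]; exact hn
  haveI : (P : Subgroup ↥Kb).Characteristic := Sylow.characteristic_of_normal P hPn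
  haveI : ((P : Subgroup ↥Kb).map Kb.subtype).Normal := inferInstance
  have hcard : Nat.card ((P : Subgroup ↥Kb).map Kb.subtype) = p ^ (Nat.card Kb).factorization p := by
    rw [← Sylow.card_eq_multiplicity P]
    exact Nat.card_congr ((P : Subgroup ↥Kb).equivMapOfInjective Kb.subtype
      Kb.subtype_injective).toEquiv.symm
  have hfac : (Nat.card Kb).factorization p ≠ 0 := by
    have hpos : 0 < (Nat.card Kb).factorization p :=
      hp.factorization_pos_of_dvd (by omega) hpq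
    omega
  have hle : (P : Subgroup ↥Kb).map Kb.subtype ≤ Kb := Subgroup.map_subtype_le _
  by_cases hEq : (P : Subgroup ↥Kb).map Kb.subtype = Kb
  · refine ⟨p, (Nat.card Kb).factorization p, hp, ?_⟩
    rw [← hcard, hEq]
  · exfalso
    have hne : (P : Subgroup ↥Kb).map Kb.subtype ≠ ⊥ := by
      intro hbot
      rw [hbot, Subgroup.card_bot] at hcard
      have : 1 < p ^ (Nat.card Kb).factorization p := Nat.one_lt_pow hfac hp.one_lt
      omega
    have := frob_bound hodd Kb _ hle hab hfr hne hEq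
    omega

end frob

section lcs

variable {L : Type u} [Group L]

theorem lcs_normal (K : Subgroup L) [hK : K.Normal] : ∀ i, (K.lowerCentralSeries i).Normal := by
  intro i
  induction i with
  | zero => exact hK
  | succ i ih =>
    rw [Subgroup.lowerCentralSeries_succ]
    haveI := ih
    infer_instance

theorem le_of_le_sup_commutator (K Q₀ M : Subgroup L) [K.Normal] (hQK : Q₀ ≤ K) (hMQ : M ≤ Q₀)
    (c : ℕ) (hc : K.lowerCentralSeries c ≤ M) (h : K ≤ Q₀ ⊔ ⁅K, K⁆) : K ≤ Q₀ := by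
  have key : ∀ i : ℕ, K ≤ Q₀ ⊔ K.lowerCentralSeries (i + 1) := by
    intro i
    induction i with
    | zero => exact h
    | succ i ih =>
      haveI := lcs_normal K (i + 1)
      haveI hn2 := lcs_normal K (i + 1 + 1)
      refine h.trans (sup_le le_sup_left ?_)
      rw [Subgroup.commutator_le]
      intro x hx y hy
      have hx' := ih hx
      have hy' := ih hy
      rw [Subgroup.mem_sup_of_normal_right] at hx' hy'
      obtain ⟨a, ha, g, hg, rfl⟩ := hx'
      obtain ⟨b, hb, k, hk, rfl⟩ := hy'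
      have e : ⁅a * g, b * k⁆ = (a * ⁅g, b * k⁆ * a⁻¹) * ⁅a, b⁆ * (b * ⁅k, a⁆⁻¹ * b⁻¹) := by
        simp only [commutatorElement_def]; group
      rw [e]
      have hΓ : ∀ z ∈ K.lowerCentralSeries (i + 1), ∀ w ∈ K,
          ⁅z, w⁆ ∈ K.lowerCentralSeries (i + 1 + 1) := by
        intro z hz w hw
        exact Subgroup.commutator_mem_commutator hz hw
      refine Subgroup.mul_mem _ (Subgroup.mul_mem _ (Subgroup.mem_sup_right ?_)
        (Subgroup.mem_sup_left ?_)) (Subgroup.mem_sup_right ?_)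
      · exact hn2.conj_mem _ (hΓ g hg (b * k) hy) a
      · rw [commutatorElement_def]
        exact Q₀.mul_mem (Q₀.mul_mem (Q₀.mul_mem ha hb) (Q₀.inv_mem ha)) (Q₀.inv_mem hb)
      · exact hn2.conj_mem _ (Subgroup.inv_mem _ (hΓ k hk a (hQK ha))) b
  have h1 := key c
  have h2 : K.lowerCentralSeries (c + 1) ≤ M :=
    (K.lowerCentralSeries_antitone (Nat.le_succ c)).trans hc
  exact h1.trans (sup_le le_rfl (h2.trans hMQ))

theorem pgroup_step [Finite L] (K M : Subgroup L) [K.Normal] [M.Normal] (hMK : M ≤ K)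
    (c : ℕ) (hc : K.lowerCentralSeries c ≤ M) (p a : ℕ) (hp : p.Prime)
    (h : (⁅K, K⁆ ⊔ M).relIndex K = p ^ a) : ∃ m : ℕ, M.relIndex K = p ^ m := by
  haveI : Fact p.Prime := ⟨hp⟩
  obtain ⟨P₀⟩ : Nonempty (Sylow p ↥K) := inferInstance
  obtain ⟨P, hP⟩ : ∃ P : Subgroup L, P = (P₀ : Subgroup ↥K).map K.subtype := ⟨_, rfl⟩
  have hPK : P ≤ K := by rw [hP]; exact Subgroup.map_subtype_le _
  have hPsub : P.subgroupOf K = (P₀ : Subgroup ↥K) := by
    rw [hP]; exact Subgroup.comap_map_eq_self_of_injective K.subtype_injective _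
  have hcardP : Nat.card P = Nat.card (P₀ : Subgroup ↥K) := by
    rw [hP]
    exact Nat.card_congr ((P₀ : Subgroup ↥K).equivMapOfInjective K.subtype
      K.subtype_injective).toEquiv.symm
  have hclaim : K ≤ (P ⊔ M) ⊔ ⁅K, K⁆ := by
    rw [← Subgroup.relIndex_eq_one]
    have d1 : ((P ⊔ M) ⊔ ⁅K, K⁆).relIndex K ∣ P.relIndex K :=
      Subgroup.relIndex_dvd_of_le_left K (le_sup_left.trans le_sup_left)
    have d2 : ((P ⊔ M) ⊔ ⁅K, K⁆).relIndex K ∣ (⁅K, K⁆ ⊔ M).relIndex K :=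
      Subgroup.relIndex_dvd_of_le_left K
        (sup_le le_sup_right (le_sup_right.trans le_sup_left))
    rw [h] at d2
    obtain ⟨j, -, hj⟩ := (Nat.dvd_prime_pow hp).1 d2
    have hnd : ¬ p ∣ P.relIndex K := by
      have : P.relIndex K = (P₀ : Subgroup ↥K).index := by
        unfold Subgroup.relIndex; rw [hPsub]
      rw [this]
      exact P₀.not_dvd_index
    rw [hj] at d1 ⊢
    rcases Nat.eq_zero_or_pos j with h0 | hpos
    · rw [h0, pow_zero]
    · exfalso
      exact hnd ((dvd_pow_self p hpos.ne').trans d1)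
  have hle := le_of_le_sup_commutator K (P ⊔ M) M (sup_le hPK hMK) le_sup_right c hc hclaim
  have hKeq : K = P ⊔ M := le_antisymm hle (sup_le hPK hMK)
  have h1 : M.relIndex K = M.relIndex P :=
    (congrArg (fun X => M.relIndex X) hKeq).trans (Subgroup.relIndex_sup_right P M)
  have h2 : M.relIndex P ∣ Nat.card P := Subgroup.index_dvd_card (M.subgroupOf P)
  obtain ⟨n, hn⟩ := IsPGroup.iff_card.mp P₀.isPGroup'
  rw [hcardP, hn] at h2
  obtain ⟨m, -, hm⟩ := (Nat.dvd_prime_pow hp).1 h2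
  exact ⟨m, h1.trans hm⟩

theorem abelian_step [Finite L] (K M : Subgroup L) [K.Normal] [hM : M.Normal] (hMK : M ≤ K)
    (c : ℕ) (hc : K.lowerCentralSeries c ≤ M) (p : ℕ) (hp : p.Prime)
    (h : (⁅K, K⁆ ⊔ M).relIndex K = p) : ⁅K, K⁆ ≤ M := by
  have hH₁K : ⁅K, K⁆ ⊔ M ≤ K := sup_le (Subgroup.commutator_le_left K K) hMK
  obtain ⟨x, hxK, hxH⟩ : ∃ x ∈ K, x ∉ ⁅K, K⁆ ⊔ M := by
    by_contra hno
    push Not at hno
    have : (⁅K, K⁆ ⊔ M).relIndex K = 1 := Subgroup.relIndex_eq_one.2 hno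
    rw [this] at h
    exact hp.one_lt.ne h
  have hZK : Subgroup.zpowers x ≤ K := (Subgroup.zpowers_le).2 hxK
  have hclaim : K ≤ (Subgroup.zpowers x ⊔ M) ⊔ ⁅K, K⁆ := by
    rw [← Subgroup.relIndex_eq_one]
    have hle1 : ⁅K, K⁆ ⊔ M ≤ (Subgroup.zpowers x ⊔ M) ⊔ ⁅K, K⁆ :=
      sup_le le_sup_right (le_sup_right.trans le_sup_left)
    have hle2 : (Subgroup.zpowers x ⊔ M) ⊔ ⁅K, K⁆ ≤ K :=
      sup_le (sup_le hZK hMK) (Subgroup.commutator_le_left K K)
    have e := Subgroup.relIndex_mul_relIndex _ _ _ hle1 hle2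
    rw [h] at e
    have hne1 : (⁅K, K⁆ ⊔ M).relIndex ((Subgroup.zpowers x ⊔ M) ⊔ ⁅K, K⁆) ≠ 1 := by
      intro h1
      rw [Subgroup.relIndex_eq_one] at h1
      exact hxH (h1 (Subgroup.mem_sup_left (Subgroup.mem_sup_left (Subgroup.mem_zpowers x))))
    have hd : ((Subgroup.zpowers x ⊔ M) ⊔ ⁅K, K⁆).relIndex K ∣ p := ⟨_, by rw [← e, mul_comm]⟩
    rcases (Nat.dvd_prime hp).1 hd with h1 | h1
    · exact h1
    · exfalso
      rw [h1] at e
      have : (⁅K, K⁆ ⊔ M).relIndex ((Subgroup.zpowers x ⊔ M) ⊔ ⁅K, K⁆) = 1 := by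
        have hp0 : 0 < p := hp.pos
        nlinarith
      exact hne1 this
  have hle := le_of_le_sup_commutator K (Subgroup.zpowers x ⊔ M) M (sup_le hZK hMK)
    le_sup_right c hc hclaim
  rw [Subgroup.commutator_le]
  intro a ha b hb
  have ha' := hle ha
  have hb' := hle hb
  rw [Subgroup.mem_sup_of_normal_right] at ha' hb'
  obtain ⟨z, hz, m, hm, rfl⟩ := ha'
  obtain ⟨z', hz', m', hm', rfl⟩ := hb'
  obtain ⟨i, rfl⟩ := Subgroup.mem_zpowers_iff.1 hz
  obtain ⟨j, rfl⟩ := Subgroup.mem_zpowers_iff.1 hz'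
  have e : ⁅x ^ i * m, x ^ j * m'⁆ = (x ^ i * m * (x ^ i)⁻¹) *
      (x ^ (i + j) * (m' * m⁻¹) * (x ^ (i + j))⁻¹) * (x ^ j * m'⁻¹ * (x ^ j)⁻¹) := by
    simp only [commutatorElement_def]; group
  rw [e]
  exact M.mul_mem (M.mul_mem (hM.conj_mem _ hm _) (hM.conj_mem _ (M.mul_mem hm' (M.inv_mem hm)) _))
    (hM.conj_mem _ (M.inv_mem hm') _)

end lcs

end Cfsg.Agent.Lib.helper22.Coh
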