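import Mathlib

set_option autoImplicit false

namespace Cfsg.Agent.Lib.helper22.Coh

universe u

section frobfacts

variable {L : Type u} [Group L] [Finite L]

theorem frob_quot_fpf (K M : Subgroup L) [hK : K.Normal] [hM : M.Normal] (hMK : M ≤ K)
    (hC : ∀ k ∈ K, k ≠ 1 → ∀ x : L, x * k = k * x → x ∈ K)
    (p m : ℕ) (hp : p.Prime) (hcard : Nat.card K = p ^ m) (hcop : Nat.Coprime K.index p) :
    ∀ k ∈ K, k ∉ M → ∀ x : L, x * k * x⁻¹ * k⁻¹ ∈ M → x ∈ K := by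
  intro k hk hkM x hx
  by_contra hxK
  have hn : 0 < orderOf x := orderOf_pos x
  have hxe : x ^ K.index ∈ K := Subgroup.pow_index_mem K x
  obtain ⟨g, hg⟩ : ∃ g, g = Nat.gcd (orderOf x) K.index := ⟨_, rfl⟩
  have hxg : x ^ g ∈ K := by
    have hb := Nat.gcd_eq_gcd_ab (orderOf x) K.index
    have e : x ^ (g : ℤ) = (x ^ (orderOf x : ℤ)) ^ (Nat.gcdA (orderOf x) K.index) *
        (x ^ (K.index : ℤ)) ^ (Nat.gcdB (orderOf x) K.index) := by
      rw [← zpow_mul, ← zpow_mul, ← zpow_add, hg, hb]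
    rw [← zpow_natCast, e]
    refine K.mul_mem (K.zpow_mem ?_ _) (K.zpow_mem ?_ _)
    · rw [zpow_natCast, pow_orderOf_eq_one]; exact K.one_mem
    · rw [zpow_natCast]; exact hxe
  have hg1 : g ≠ 1 := by
    intro h
    rw [h, pow_one] at hxg
    exact hxK hxg
  obtain ⟨q, hq, hqg⟩ := Nat.exists_prime_and_dvd hg1
  haveI : Fact q.Prime := ⟨hq⟩
  have hqn : q ∣ orderOf x := hqg.trans (hg ▸ Nat.gcd_dvd_left _ _)
  have hqe : q ∣ K.index := hqg.trans (hg ▸ Nat.gcd_dvd_right _ _)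
  have hqp : q ≠ p := by
    intro h
    rw [h] at hqe
    have h1 : p ∣ Nat.gcd K.index p := Nat.dvd_gcd hqe dvd_rfl
    rw [hcop] at h1
    exact hp.one_lt.ne' (Nat.dvd_one.1 h1)
  obtain ⟨v, hv⟩ : ∃ v, v = (orderOf x).factorization q := ⟨_, rfl⟩
  have hqv : q ^ v ∣ orderOf x := hv ▸ Nat.ordProj_dvd _ _
  obtain ⟨r, hr⟩ := hqv
  obtain ⟨y, hy⟩ : ∃ y, y = x ^ r := ⟨_, rfl⟩
  have hyq : y ^ (q ^ v) = 1 := by
    rw [hy, ← pow_mul, mul_comm, ← hr, pow_orderOf_eq_one]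
  have hv1 : 1 ≤ v := by
    rw [hv]; exact hq.factorization_pos_of_dvd hn.ne' hqn
  have hr0 : r ≠ 0 := by
    rintro rfl
    rw [mul_zero] at hr
    omega
  have hrlt : r < orderOf x := by
    rw [hr]
    have h2 : 1 < q ^ v := Nat.one_lt_pow (by omega) hq.one_lt
    have h3 : 0 < r := Nat.pos_of_ne_zero hr0
    nlinarith
  have hcopqp : Nat.Coprime (q ^ v) (p ^ m) :=
    Nat.Coprime.pow _ _ ((Nat.coprime_primes hq hp).2 hqp)
  have hyK : y ∉ K := by
    intro hyK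
    have h1 : orderOf y ∣ q ^ v := orderOf_dvd_of_pow_eq_one hyq
    have h2 : orderOf y ∣ p ^ m := by
      rw [← hcard]
      have h := orderOf_dvd_natCard (⟨y, hyK⟩ : K)
      rwa [Subgroup.orderOf_mk] at h
    have h3 : orderOf y ∣ Nat.gcd (q ^ v) (p ^ m) := Nat.dvd_gcd h1 h2
    rw [hcopqp] at h3
    have h4 : y = 1 := orderOf_eq_one_iff.1 (Nat.dvd_one.1 h3)
    rw [hy] at h4
    have h5 : orderOf x ∣ r := orderOf_dvd_of_pow_eq_one h4
    have h6 := Nat.le_of_dvd (Nat.pos_of_ne_zero hr0) h5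
    omega
  have hconj : ∀ j : ℕ, ∀ c : L, c * k⁻¹ ∈ M → x ^ j * c * (x ^ j)⁻¹ * k⁻¹ ∈ M := by
    intro j
    induction j with
    | zero => intro c hc; simpa using hc
    | succ j ih =>
      intro c hc
      have h1 := ih c hc
      have e : x ^ (j + 1) * c * (x ^ (j + 1))⁻¹ * k⁻¹ =
          (x * (x ^ j * c * (x ^ j)⁻¹ * k⁻¹) * x⁻¹) * (x * k * x⁻¹ * k⁻¹) := by
        rw [pow_succ']; group
      rw [e]
      exact M.mul_mem (hM.conj_mem _ h1 x) hx
  have hpres : ∀ (g : Subgroup.zpowers y) (c : {c : L // c * k⁻¹ ∈ M}),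
      (g : L) * c.1 * (g : L)⁻¹ * k⁻¹ ∈ M := by
    intro g c
    obtain ⟨j, hj⟩ := mem_powers_iff_mem_zpowers.2 g.2
    have hj' : (g : L) = x ^ (r * j) := by
      rw [← hj, pow_mul, ← hy]
    rw [hj']
    exact hconj _ c.1 c.2
  letI act : MulAction (Subgroup.zpowers y) {c : L // c * k⁻¹ ∈ M} :=
    { smul := fun g c => ⟨(g : L) * c.1 * (g : L)⁻¹, hpres g c⟩
      one_smul := fun c => Subtype.ext (by
        show ((1 : Subgroup.zpowers y) : L) * c.1 * ((1 : Subgroup.zpowers y) : L)⁻¹ = c.1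
        simp)
      mul_smul := fun g h c => Subtype.ext (by
        show ((g * h : Subgroup.zpowers y) : L) * c.1 * ((g * h : Subgroup.zpowers y) : L)⁻¹ =
          (g : L) * ((h : L) * c.1 * (h : L)⁻¹) * (g : L)⁻¹
        simp only [Subgroup.coe_mul]
        group) }
  have hQ : IsPGroup q (Subgroup.zpowers y) := by
    have h1 : orderOf y ∣ q ^ v := orderOf_dvd_of_pow_eq_one hyq
    obtain ⟨j, -, hj⟩ := (Nat.dvd_prime_pow hq).1 h1
    exact IsPGroup.of_card (n := j) (by rw [Nat.card_zpowers, hj])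
  have hmod := hQ.card_modEq_card_fixedPoints {c : L // c * k⁻¹ ∈ M}
  have hcardC : Nat.card {c : L // c * k⁻¹ ∈ M} = Nat.card M := by
    apply Nat.card_congr
    exact
      { toFun := fun c => ⟨c.1 * k⁻¹, c.2⟩
        invFun := fun a => ⟨a.1 * k, by simp⟩
        left_inv := fun c => Subtype.ext (by simp)
        right_inv := fun a => Subtype.ext (by simp) }
  have hMdvd : Nat.card M ∣ p ^ m := by
    rw [← hcard]; exact Subgroup.card_dvd_of_le hMK
  obtain ⟨a, -, ha⟩ := (Nat.dvd_prime_pow hp).1 hMdvd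
  rw [hcardC, ha] at hmod
  have hfix : (MulAction.fixedPoints (Subgroup.zpowers y) {c : L // c * k⁻¹ ∈ M}).Nonempty := by
    by_contra hempty
    rw [Set.not_nonempty_iff_eq_empty] at hempty
    rw [hempty] at hmod
    have h0 : Nat.card (∅ : Set {c : L // c * k⁻¹ ∈ M}) = 0 := by simp
    rw [h0] at hmod
    have h1 : q ∣ p ^ a := (Nat.modEq_zero_iff_dvd).1 hmod
    have h2 : q ∣ p := hq.dvd_of_dvd_pow h1
    exact hqp ((Nat.prime_dvd_prime_iff_eq hq hp).1 h2)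
  obtain ⟨c, hc⟩ := hfix
  have hcfix := hc ⟨y, Subgroup.mem_zpowers y⟩
  have hc1 : y * c.1 * y⁻¹ = c.1 := congrArg Subtype.val hcfix
  have hcK : c.1 ∈ K := by
    have h1 : c.1 = (c.1 * k⁻¹) * k := by group
    rw [h1]
    exact K.mul_mem (hMK c.2) hk
  have hcne : c.1 ≠ 1 := by
    intro h1
    have h2 := c.2
    rw [h1, one_mul] at h2
    exact hkM (by simpa using M.inv_mem h2)
  apply hyK
  apply hC c.1 hcK hcne y
  calc y * c.1 = y * c.1 * y⁻¹ * y := by group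
    _ = c.1 * y := by rw [hc1]

theorem frob_index_odd (K : Subgroup L) [hK : K.Normal]
    (hC : ∀ k ∈ K, k ≠ 1 → ∀ x : L, x * k = k * x → x ∈ K) (hKodd : Odd (Nat.card K))
    (hna : ¬ ∀ a ∈ K, ∀ b ∈ K, a * b = b * a) : Odd K.index := by
  by_contra heven
  rw [Nat.not_odd_iff_even] at heven
  have h2 : 2 ∣ Nat.card L := by
    rw [← Subgroup.card_mul_index K]
    exact (even_iff_two_dvd.1 heven).mul_left _
  haveI : Fact (Nat.Prime 2) := ⟨Nat.prime_two⟩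
  obtain ⟨t, ht⟩ := exists_prime_orderOf_dvd_card' 2 h2
  have htK : t ∉ K := by
    intro h
    have h1 := orderOf_dvd_natCard (⟨t, h⟩ : K)
    rw [Subgroup.orderOf_mk, ht] at h1
    exact (Nat.not_even_iff_odd.2 hKodd) (even_iff_two_dvd.2 h1)
  have htt : t * t = 1 := by rw [← pow_two, ← ht, pow_orderOf_eq_one]
  have htinv : t⁻¹ = t := inv_eq_of_mul_eq_one_left htt
  obtain ⟨f, hf⟩ : ∃ f : K → K, ∀ a : K, ((f a : K) : L) = (a : L)⁻¹ * (t * a * t⁻¹) :=
    ⟨fun a => ⟨(a : L)⁻¹ * (t * a * t⁻¹), K.mul_mem (K.inv_mem a.2) (hK.conj_mem a a.2 t)⟩,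
      fun _ => rfl⟩
  have hinj : Function.Injective f := by
    intro a b hab
    have h1 : (a : L)⁻¹ * (t * a * t⁻¹) = (b : L)⁻¹ * (t * b * t⁻¹) := by
      rw [← hf a, ← hf b, hab]
    have h3 : t * ((b : L) * (a : L)⁻¹) = ((b : L) * (a : L)⁻¹) * t := by
      calc t * ((b : L) * (a : L)⁻¹)
          = (b : L) * ((b : L)⁻¹ * (t * b * t⁻¹)) * t * (a : L)⁻¹ := by group
        _ = (b : L) * ((a : L)⁻¹ * (t * a * t⁻¹)) * t * (a : L)⁻¹ := by rw [h1]
        _ = (b : L) * (a : L)⁻¹ * t := by group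
    by_contra hne
    have h4 : (b : L) * (a : L)⁻¹ ≠ 1 := by
      intro h
      apply hne
      apply Subtype.ext
      exact (mul_inv_eq_one.1 h).symm
    exact htK (hC _ (K.mul_mem b.2 (K.inv_mem a.2)) h4 t h3)
  have hsurj : Function.Surjective f := Finite.surjective_of_injective hinj
  have hinvert : ∀ c ∈ K, t * c * t⁻¹ = c⁻¹ := by
    intro c hc
    obtain ⟨a, ha⟩ := hsurj ⟨c, hc⟩
    have hc' : c = (a : L)⁻¹ * (t * a * t⁻¹) := by
      rw [← hf a, ha]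
    rw [hc']
    have e1 : t * ((a : L)⁻¹ * (t * a * t⁻¹)) * t⁻¹ = t * (a : L)⁻¹ * t * a * (t * t)⁻¹ := by
      group
    have e2 : ((a : L)⁻¹ * (t * a * t⁻¹))⁻¹ = t * (a : L)⁻¹ * t⁻¹ * a := by group
    rw [e1, e2, htt, htinv]
    group
  apply hna
  intro a ha b hb
  have h1 := hinvert (a * b) (K.mul_mem ha hb)
  have h4 : t * (a * b) * t⁻¹ = (t * a * t⁻¹) * (t * b * t⁻¹) := by group
  rw [h4, hinvert a ha, hinvert b hb, mul_inv_rev] at h1
  have h5 := congrArg Inv.inv h1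
  rw [mul_inv_rev, mul_inv_rev, inv_inv, inv_inv] at h5
  exact h5.symm

end frobfacts

end Cfsg.Agent.Lib.helper22.Coh
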