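import Mathlib

set_option autoImplicit false

namespace Cfsg.Agent.Lib.helper22

open scoped ComplexConjugate

theorem ram_sum (p N : ℕ) (hp : p.Prime) (hN : 1 ≤ N) (η : ℂ) (hη : η ^ (p ^ N) = 1) :
    ∑ j ∈ (Finset.range (p ^ N)).filter (fun j => ¬ p ∣ j), η ^ j
      = (p : ℂ) ^ (N - 1)
        * ((if η = 1 then (p : ℂ) else 0) - (if η ^ p = 1 then (1 : ℂ) else 0)) := by
  obtain ⟨m, rfl⟩ : ∃ m, N = m + 1 := ⟨N - 1, by omega⟩
  simp only [Nat.add_sub_cancel]
  have hsplit := Finset.sum_filter_add_sum_filter_not (Finset.range (p ^ (m + 1)))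
    (fun j => p ∣ j) (fun j => η ^ j)
  have h1 : ∑ j ∈ Finset.range (p ^ (m + 1)), η ^ j
      = (p : ℂ) ^ m * (if η = 1 then (p : ℂ) else 0) := by
    by_cases h : η = 1
    · rw [h]
      simp [pow_succ]
    · rw [if_neg h, geom_sum_eq h, hη]
      simp
  have h2 : ∑ j ∈ (Finset.range (p ^ (m + 1))).filter (fun j => p ∣ j), η ^ j
      = (p : ℂ) ^ m * (if η ^ p = 1 then (1 : ℂ) else 0) := by
    have himg : (Finset.range (p ^ (m + 1))).filter (fun j => p ∣ j)
        = (Finset.range (p ^ m)).image (fun i => p * i) := by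
      ext j
      simp only [Finset.mem_filter, Finset.mem_range, Finset.mem_image]
      constructor
      · rintro ⟨hj, i, rfl⟩
        refine ⟨i, ?_, rfl⟩
        rw [pow_succ'] at hj
        exact lt_of_mul_lt_mul_left hj (Nat.zero_le p)
      · rintro ⟨i, hi, rfl⟩
        refine ⟨?_, dvd_mul_right p i⟩
        rw [pow_succ']
        exact Nat.mul_lt_mul_of_pos_left hi hp.pos
    rw [himg, Finset.sum_image]
    · have hpm : ∀ i, η ^ (p * i) = (η ^ p) ^ i := fun i => pow_mul η p i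
      simp only [hpm]
      by_cases h : η ^ p = 1
      · rw [h]
        simp
      · rw [if_neg h, geom_sum_eq h, ← pow_mul, ← pow_succ', hη]
        simp
    · intro i _ i' _ h
      exact Nat.eq_of_mul_eq_mul_left hp.pos h
  linear_combination hsplit + h1 - h2

theorem int_sq_pair (t u w : ℤ) (h : u ≠ w) : 1 ≤ (t - u) ^ 2 + (t - w) ^ 2 := by
  by_cases h0 : t = u
  · have h1 : t - w ≠ 0 := by
      rw [h0]
      exact sub_ne_zero.mpr h
    have h2 : 0 < (t - w) ^ 2 := by positivity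
    have h3 := sq_nonneg (t - u)
    omega
  · have h1 : t - u ≠ 0 := sub_ne_zero.mpr h0
    have h2 : 0 < (t - u) ^ 2 := by positivity
    have h3 := sq_nonneg (t - w)
    omega

theorem lpairs {V : Type*} [DecidableEq V] (s : Finset V) (x : V → ℤ) (a b : V) (ha : a ∈ s)
    (hb : b ∈ s) (hab : x a ≠ x b) :
    2 * ((s.card : ℤ) - 1) ≤ ∑ v ∈ s, ∑ v' ∈ s, (x v - x v') ^ 2 := by
  have hne : a ≠ b := fun h => hab (by rw [h])
  obtain ⟨R, hR⟩ : ∃ R : V → ℤ, R = fun v => ∑ v' ∈ s, (x v - x v') ^ 2 := ⟨_, rfl⟩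
  have hR1 : ∀ v ∈ s, 1 ≤ R v := by
    intro v _
    rw [hR]
    have h := Finset.add_le_sum (f := fun v' => (x v - x v') ^ 2) (s := s)
      (fun i _ => sq_nonneg _) ha hb hne
    have h1 := int_sq_pair (x v) (x a) (x b) hab
    exact h1.trans h
  have hRab : (s.card : ℤ) ≤ R a + R b := by
    rw [hR]
    rw [← Finset.sum_add_distrib]
    have hc : (s.card : ℤ) = ∑ v' ∈ s, (1 : ℤ) := by simp
    rw [hc]
    apply Finset.sum_le_sum
    intro v' _
    have h1 := int_sq_pair (x v') (x a) (x b) hab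
    have e1 : (x a - x v') ^ 2 = (x v' - x a) ^ 2 := by ring
    have e2 : (x b - x v') ^ 2 = (x v' - x b) ^ 2 := by ring
    rw [e1, e2]
    exact h1
  have hsub : ({a, b} : Finset V) ⊆ s := by
    intro z hz
    rw [Finset.mem_insert, Finset.mem_singleton] at hz
    rcases hz with rfl | rfl
    · exact ha
    · exact hb
  have hsum : ∑ v ∈ s, R v = R a + R b + ∑ v ∈ s \ {a, b}, R v := by
    rw [← Finset.sum_sdiff hsub, Finset.sum_pair hne]
    ring
  have hrest : ((s \ {a, b}).card : ℤ) ≤ ∑ v ∈ s \ {a, b}, R v := by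
    have hc : ((s \ {a, b}).card : ℤ) = ∑ v ∈ s \ {a, b}, (1 : ℤ) := by simp
    rw [hc]
    apply Finset.sum_le_sum
    intro v hv
    exact hR1 v (Finset.mem_sdiff.mp hv).1
  have hcard : ((s \ {a, b}).card : ℤ) = (s.card : ℤ) - 2 := by
    have h2 : 2 ≤ s.card := by
      have := Finset.card_le_card hsub
      rwa [Finset.card_pair hne] at this
    rw [Finset.card_sdiff_of_subset hsub, Finset.card_pair hne]
    omega
  have hfin : ∑ v ∈ s, ∑ v' ∈ s, (x v - x v') ^ 2 = ∑ v ∈ s, R v := by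
    rw [hR]
  rw [hfin, hsum]
  linarith

theorem sum_mul_right_eq {A : Type*} [AddCommMonoid A] (U V : Finset ℂ)
    (hUV : ∀ w ∈ U, ∀ v ∈ V, w * v ∈ U) (hVinv : ∀ v ∈ V, v⁻¹ ∈ V) (hV0 : ∀ v ∈ V, v ≠ 0)
    (g : ℂ → A) (v : ℂ) (hv : v ∈ V) : ∑ w ∈ U, g (w * v) = ∑ w ∈ U, g w := by
  apply Finset.sum_nbij' (fun w => w * v) (fun w => w * v⁻¹)
  · intro w hw
    exact hUV w hw v hv
  · intro w hw
    exact hUV w hw v⁻¹ (hVinv v hv)
  · intro w _
    rw [mul_assoc, mul_inv_cancel₀ (hV0 v hv), mul_one]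
  · intro w _
    rw [mul_assoc, inv_mul_cancel₀ (hV0 v hv), mul_one]
  · intro w _
    rfl

theorem avg_norm_sq_p {P : Type*} [Fintype P] (p N : ℕ) (hp : p.Prime) (hN : 1 ≤ N)
    (K : P → ℤ) (ω : P → ℂ) (hω : ∀ t, ω t ^ (p ^ N) = 1)
    (hne : (∑ t, (K t : ℂ) * ω t ^ 1) ≠ 0) :
    ((p ^ (N - 1) * (p - 1) : ℕ) : ℝ)
      ≤ ∑ j ∈ (Finset.range (p ^ N)).filter (fun j => ¬ p ∣ j),
        Complex.normSq (∑ t, (K t : ℂ) * ω t ^ j) := by
  classical
  have hpN : 0 < p ^ N := pow_pos hp.pos N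
  obtain ⟨U, hU⟩ : ∃ U : Finset ℂ, U = Polynomial.nthRootsFinset (p ^ N) (1 : ℂ) := ⟨_, rfl⟩
  obtain ⟨V, hV⟩ : ∃ V : Finset ℂ, V = Polynomial.nthRootsFinset p (1 : ℂ) := ⟨_, rfl⟩
  have hUmem : ∀ w, w ∈ U ↔ w ^ (p ^ N) = 1 := by
    intro w
    rw [hU]
    exact Polynomial.mem_nthRootsFinset hpN 1
  have hVmem : ∀ v, v ∈ V ↔ v ^ p = 1 := by
    intro v
    rw [hV]
    exact Polynomial.mem_nthRootsFinset hp.pos 1
  have hVcard : V.card = p := by
    rw [hV]
    exact (Complex.isPrimitiveRoot_exp p hp.ne_zero).card_nthRootsFinset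
  have hVU : ∀ v ∈ V, v ^ (p ^ N) = 1 := by
    intro v hv
    obtain ⟨m, rfl⟩ : ∃ m, N = m + 1 := ⟨N - 1, by omega⟩
    rw [pow_succ', pow_mul, (hVmem v).mp hv, one_pow]
  have hUV : ∀ w ∈ U, ∀ v ∈ V, w * v ∈ U := by
    intro w hw v hv
    rw [hUmem, mul_pow, (hUmem w).mp hw, hVU v hv, one_mul]
  have hVinv : ∀ v ∈ V, v⁻¹ ∈ V := by
    intro v hv
    rw [hVmem, inv_pow, (hVmem v).mp hv, inv_one]
  have hV0 : ∀ v ∈ V, v ≠ 0 := by
    intro v hv h0
    have h1 := (hVmem v).mp hv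
    rw [h0, zero_pow hp.ne_zero] at h1
    exact zero_ne_one h1
  have hVmul : ∀ v ∈ V, ∀ v' ∈ V, v * v' ∈ V := by
    intro v hv v' hv'
    rw [hVmem, mul_pow, (hVmem v).mp hv, (hVmem v').mp hv', one_mul]
  have hV1 : (1 : ℂ) ∈ V := by
    rw [hVmem, one_pow]
  have hconj : ∀ w ∈ U, w * conj w = 1 := by
    intro w hw
    rw [Complex.mul_conj, Complex.normSq_eq_norm_sq,
      Complex.norm_eq_one_of_pow_eq_one ((hUmem w).mp hw) hpN.ne']
    simp
  have hU0 : ∀ w ∈ U, w ≠ 0 := by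
    intro w hw h0
    have h1 := hconj w hw
    rw [h0, zero_mul] at h1
    exact zero_ne_one h1
  obtain ⟨S, hS⟩ : ∃ S : ℂ → ℤ, S = fun w => ∑ t, if ω t = w then K t else 0 := ⟨_, rfl⟩
  have hc : ∀ j : ℕ, ∑ t, (K t : ℂ) * ω t ^ j = ∑ w ∈ U, (S w : ℂ) * w ^ j := by
    intro j
    rw [hS]
    push_cast
    simp only [Finset.sum_mul]
    rw [Finset.sum_comm]
    apply Finset.sum_congr rfl
    intro t _
    rw [Finset.sum_eq_single (ω t)]
    · simp
    · intro w _ hw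
      rw [if_neg (Ne.symm hw)]
      simp
    · intro h
      exact absurd ((hUmem _).mpr (hω t)) h
  obtain ⟨Z, hZ⟩ : ∃ Z : ℤ, Z = (p : ℤ) * ∑ w ∈ U, S w ^ 2
      - ∑ w ∈ U, ∑ v ∈ V, S w * S (w * v) := ⟨_, rfl⟩
  have hfilter : ∀ w ∈ U, ∑ w' ∈ U, (if (w * conj w') ^ p = 1 then (S w' : ℂ) else 0)
      = ∑ v ∈ V, (S (w * v) : ℂ) := by
    intro w hw
    rw [← Finset.sum_filter]
    apply Finset.sum_nbij' (fun w' => w' * conj w) (fun v => w * v)
    · intro w' hw'
      rw [Finset.mem_filter] at hw'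
      rw [hVmem]
      have h1 : w' * conj w = conj (w * conj w') := by
        rw [map_mul, Complex.conj_conj, mul_comm]
      rw [h1, ← map_pow, hw'.2, map_one]
    · intro v hv
      rw [Finset.mem_filter]
      refine ⟨hUV w hw v hv, ?_⟩
      have h1 : w * conj (w * v) = conj v := by
        rw [map_mul, ← mul_assoc, hconj w hw, one_mul]
      rw [h1, ← map_pow, (hVmem v).mp hv, map_one]
    · intro w' _
      rw [mul_comm w' (conj w), ← mul_assoc, hconj w hw, one_mul]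
    · intro v _
      rw [mul_comm w v, mul_assoc, hconj w hw, mul_one]
    · intro w' _
      rw [mul_comm w' (conj w), ← mul_assoc, hconj w hw, one_mul]
  have hT : ((∑ j ∈ (Finset.range (p ^ N)).filter (fun j => ¬ p ∣ j),
      Complex.normSq (∑ t, (K t : ℂ) * ω t ^ j) : ℝ) : ℂ) = (p : ℂ) ^ (N - 1) * (Z : ℂ) := by
    push_cast
    have e1 : ∀ j : ℕ, (Complex.normSq (∑ t, (K t : ℂ) * ω t ^ j) : ℂ)
        = ∑ w ∈ U, ∑ w' ∈ U, ((S w : ℂ) * (S w' : ℂ)) * (w * conj w') ^ j := by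
      intro j
      rw [← Complex.mul_conj, hc j, map_sum, Finset.sum_mul]
      apply Finset.sum_congr rfl
      intro w _
      rw [Finset.mul_sum]
      apply Finset.sum_congr rfl
      intro w' _
      have hk : conj (S w' : ℂ) = (S w' : ℂ) := Complex.conj_eq_iff_re.mpr rfl
      rw [map_mul, map_pow, hk, mul_pow]
      ring
    simp only [e1]
    rw [Finset.sum_comm]
    have e2 : ∀ w ∈ U, ∑ j ∈ (Finset.range (p ^ N)).filter (fun j => ¬ p ∣ j),
        ∑ w' ∈ U, ((S w : ℂ) * (S w' : ℂ)) * (w * conj w') ^ j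
        = (p : ℂ) ^ (N - 1) * ((p : ℂ) * (S w : ℂ) ^ 2
          - (S w : ℂ) * ∑ w' ∈ U, (if (w * conj w') ^ p = 1 then (S w' : ℂ) else 0)) := by
      intro w hw
      rw [Finset.sum_comm]
      have e3 : ∀ w' ∈ U, ∑ j ∈ (Finset.range (p ^ N)).filter (fun j => ¬ p ∣ j),
          ((S w : ℂ) * (S w' : ℂ)) * (w * conj w') ^ j
          = (S w : ℂ) * (S w' : ℂ) * ((p : ℂ) ^ (N - 1)
            * ((if w * conj w' = 1 then (p : ℂ) else 0)
              - (if (w * conj w') ^ p = 1 then (1 : ℂ) else 0))) := by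
        intro w' hw'
        rw [← Finset.mul_sum, ram_sum p N hp hN]
        rw [mul_pow, ← map_pow, (hUmem w).mp hw, (hUmem w').mp hw', map_one, one_mul]
      rw [Finset.sum_congr rfl e3]
      have e4 : ∑ w' ∈ U, (S w : ℂ) * (S w' : ℂ) * ((p : ℂ) ^ (N - 1)
          * (if w * conj w' = 1 then (p : ℂ) else 0))
          = (p : ℂ) ^ (N - 1) * ((p : ℂ) * (S w : ℂ) ^ 2) := by
        rw [Finset.sum_eq_single w]
        · rw [if_pos (hconj w hw)]
          ring
        · intro w' hw' hne'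
          have h3 : w * conj w' ≠ 1 := by
            intro h1
            apply hne'
            have h2 := hconj w' hw'
            calc w' = w' * (w * conj w') := by rw [h1, mul_one]
              _ = w * (w' * conj w') := by ring
              _ = w := by rw [h2, mul_one]
          rw [if_neg h3]
          ring
        · intro h
          exact absurd hw h
      have e5 : ∑ w' ∈ U, (S w : ℂ) * (S w' : ℂ) * ((p : ℂ) ^ (N - 1)
          * (if (w * conj w') ^ p = 1 then (1 : ℂ) else 0))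
          = (p : ℂ) ^ (N - 1) * ((S w : ℂ)
            * ∑ w' ∈ U, (if (w * conj w') ^ p = 1 then (S w' : ℂ) else 0)) := by
        rw [Finset.mul_sum, Finset.mul_sum]
        apply Finset.sum_congr rfl
        intro w' _
        split_ifs <;> ring
      simp only [mul_sub]
      rw [Finset.sum_sub_distrib, e4, e5]
    rw [Finset.sum_congr rfl e2, ← Finset.mul_sum, hZ]
    congr 1
    push_cast
    rw [Finset.sum_sub_distrib, Finset.mul_sum]
    congr 1
    apply Finset.sum_congr rfl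
    intro w hw
    rw [hfilter w hw, Finset.mul_sum]
  have h2Z : 2 * Z = ∑ v ∈ V, ∑ w ∈ U, (S w - S (w * v)) ^ 2 := by
    have e1 : ∀ v ∈ V, ∑ w ∈ U, (S w - S (w * v)) ^ 2
        = 2 * ∑ w ∈ U, S w ^ 2 - 2 * ∑ w ∈ U, S w * S (w * v) := by
      intro v hv
      have h1 := sum_mul_right_eq U V hUV hVinv hV0 (fun w => S w ^ 2) v hv
      have h2 : ∀ w ∈ U, (S w - S (w * v)) ^ 2
          = S w ^ 2 - 2 * (S w * S (w * v)) + S (w * v) ^ 2 := by
        intro w _
        ring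
      rw [Finset.sum_congr rfl h2, Finset.sum_add_distrib, Finset.sum_sub_distrib, h1,
        ← Finset.mul_sum]
      ring
    rw [Finset.sum_congr rfl e1, Finset.sum_sub_distrib, Finset.sum_const, hVcard, hZ,
      ← Finset.mul_sum, Finset.sum_comm]
    simp only [nsmul_eq_mul]
    ring
  obtain ⟨v₁, hv₁, hv₁1⟩ : ∃ v₁ ∈ V, v₁ ≠ 1 := by
    have hprim := Complex.isPrimitiveRoot_exp p hp.ne_zero
    refine ⟨_, ?_, hprim.ne_one hp.one_lt⟩
    rw [hVmem]
    exact hprim.pow_eq_one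
  have hexw : ∃ w₀ ∈ U, S w₀ ≠ S (w₀ * v₁) := by
    by_contra hcon
    push Not at hcon
    apply hne
    have h1 := hc 1
    have h2 := sum_mul_right_eq U V hUV hVinv hV0 (fun w => (S w : ℂ) * w ^ 1) v₁ hv₁
    have h3 : ∑ w ∈ U, (S (w * v₁) : ℂ) * (w * v₁) ^ 1
        = v₁ * ∑ w ∈ U, (S w : ℂ) * w ^ 1 := by
      rw [Finset.mul_sum]
      apply Finset.sum_congr rfl
      intro w hw
      rw [← hcon w hw]
      ring
    rw [h3] at h2
    rw [h1]
    have h4 : (v₁ - 1) * ∑ w ∈ U, (S w : ℂ) * w ^ 1 = 0 := by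
      linear_combination h2
    rcases mul_eq_zero.mp h4 with h5 | h5
    · exact absurd (sub_eq_zero.mp h5) hv₁1
    · exact h5
  obtain ⟨w₀, hw₀, hw₀S⟩ := hexw
  have hlow : 2 * ((p : ℤ) - 1) ≤ ∑ v ∈ V, ∑ w ∈ U, (S w - S (w * v)) ^ 2 := by
    have hl := lpairs V (fun v => S (w₀ * v)) 1 v₁ hV1 hv₁ (by
      simp only [mul_one]
      exact hw₀S)
    rw [hVcard] at hl
    refine hl.trans ?_
    have e1 : ∑ v ∈ V, ∑ v' ∈ V, (S (w₀ * v) - S (w₀ * v')) ^ 2
        = ∑ v'' ∈ V, ∑ v ∈ V, (S (w₀ * v) - S (w₀ * v * v'')) ^ 2 := by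
      conv_rhs => rw [Finset.sum_comm]
      apply Finset.sum_congr rfl
      intro v hv
      symm
      apply Finset.sum_nbij' (fun v'' => v * v'') (fun v' => v⁻¹ * v')
      · intro v'' hv''
        exact hVmul v hv v'' hv''
      · intro v' hv'
        exact hVmul _ (hVinv v hv) v' hv'
      · intro v'' _
        rw [← mul_assoc, inv_mul_cancel₀ (hV0 v hv), one_mul]
      · intro v' _
        rw [← mul_assoc, mul_inv_cancel₀ (hV0 v hv), one_mul]
      · intro v'' _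
        rw [mul_assoc]
    rw [e1]
    apply Finset.sum_le_sum
    intro v'' hv''
    have himg : ∑ v ∈ V, (S (w₀ * v) - S (w₀ * v * v'')) ^ 2
        = ∑ w ∈ V.image (fun v => w₀ * v), (S w - S (w * v'')) ^ 2 := by
      rw [Finset.sum_image]
      intro v _ v' _ h
      exact mul_left_cancel₀ (hU0 w₀ hw₀) h
    rw [himg]
    apply Finset.sum_le_sum_of_subset_of_nonneg
    · intro w hw
      rw [Finset.mem_image] at hw
      obtain ⟨v, hv, rfl⟩ := hw
      exact hUV w₀ hw₀ v hv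
    · intro w _ _
      exact sq_nonneg _
  have hZge : (p : ℤ) - 1 ≤ Z := by
    rw [← h2Z] at hlow
    linarith
  have hTr : (∑ j ∈ (Finset.range (p ^ N)).filter (fun j => ¬ p ∣ j),
      Complex.normSq (∑ t, (K t : ℂ) * ω t ^ j) : ℝ) = (p : ℝ) ^ (N - 1) * (Z : ℝ) := by
    exact_mod_cast hT
  rw [hTr]
  have hp1 : 1 ≤ p := hp.pos
  push_cast [Nat.cast_sub hp1]
  apply mul_le_mul_of_nonneg_left _ (by positivity)
  exact_mod_cast hZge

end Cfsg.Agent.Lib.helper22
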