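import Mathlib

set_option autoImplicit false

namespace Cfsg.Agent.Lib.helper22

theorem det_one_add_smul_idem {K V : Type*} [Field K] [AddCommGroup V] [Module K V]
    [FiniteDimensional K V] (P : Module.End K V) (hP : IsIdempotentElem P) (t : K) :
    LinearMap.det (1 + (t - 1) • P) = t ^ Module.finrank K (LinearMap.range P) := by
  have hproj := LinearMap.IsIdempotentElem.isProj_range P hP
  have h1 := hproj.eq_conj_prodMap
  obtain ⟨e, he⟩ : ∃ e, e = (LinearMap.range P).prodEquivOfIsCompl (LinearMap.ker P)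
    hproj.isCompl := ⟨_, rfl⟩
  rw [← he] at h1
  have h3 : LinearMap.prodMap (t • (LinearMap.id : LinearMap.range P →ₗ[K] LinearMap.range P))
      (LinearMap.id : LinearMap.ker P →ₗ[K] LinearMap.ker P)
      = LinearMap.id + (t - 1) • LinearMap.prodMap LinearMap.id 0 := by
    ext x
    · simp [sub_smul]
    · simp [sub_smul]
    · simp
    · simp
  have h2 : (1 + (t - 1) • P : Module.End K V)
      = e.conj (LinearMap.prodMap (t • LinearMap.id) LinearMap.id) := by
    rw [h3, map_add, map_smul, ← h1, LinearEquiv.conj_id]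
    rfl
  rw [h2, LinearEquiv.conj_apply, LinearMap.comp_assoc, LinearMap.det_conj, LinearMap.det_prodMap,
    LinearMap.det_smul, LinearMap.det_id, LinearMap.det_id, mul_one, mul_one]

section rootproj

variable {K E : Type*} [Field K] [Ring E] [Algebra K E]

noncomputable def rootQ (r : ℕ) (A : E) (η : K) : E := ∑ k ∈ Finset.range r, η ^ k • A ^ k

theorem rootQ_mul (r : ℕ) (A : E) (hA : A ^ r = 1) (η : K) (hη : η ^ r = 1) :
    η • (A * rootQ r A η) = rootQ r A η := by
  unfold rootQ
  rw [Finset.mul_sum, Finset.smul_sum]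
  have h1 : ∀ k ∈ Finset.range r, η • (A * η ^ k • A ^ k) = η ^ (k + 1) • A ^ (k + 1) := by
    intro k _
    rw [mul_smul_comm, smul_smul, ← pow_succ', ← pow_succ']
  rw [Finset.sum_congr rfl h1]
  have h2 := Finset.sum_range_succ (fun k => η ^ k • A ^ k) r
  have h3 := Finset.sum_range_succ' (fun k => η ^ k • A ^ k) r
  simp only [hA, hη, pow_zero] at h2 h3
  rw [h2] at h3
  exact (add_right_cancel h3).symm

theorem rootQ_pow_mul (r : ℕ) (A : E) (hA : A ^ r = 1) (η : K) (hη : η ^ r = 1) (k : ℕ) :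
    η ^ k • (A ^ k * rootQ r A η) = rootQ r A η := by
  induction k with
  | zero => simp
  | succ k ih =>
    have h1 : η ^ (k + 1) • (A ^ (k + 1) * rootQ r A η)
        = η ^ k • (A ^ k * (η • (A * rootQ r A η))) := by
      rw [pow_succ, pow_succ, mul_smul_comm, smul_smul, mul_assoc]
    rw [h1, rootQ_mul r A hA η hη, ih]

theorem rootQ_sq (r : ℕ) (A : E) (hA : A ^ r = 1) (η : K) (hη : η ^ r = 1) :
    rootQ r A η * rootQ r A η = (r : K) • rootQ r A η := by
  have h1 : rootQ r A η * rootQ r A η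
      = ∑ k ∈ Finset.range r, η ^ k • (A ^ k * rootQ r A η) := by
    show (∑ k ∈ Finset.range r, η ^ k • A ^ k) * rootQ r A η = _
    rw [Finset.sum_mul]
    apply Finset.sum_congr rfl
    intro k _
    rw [smul_mul_assoc]
  rw [h1, Finset.sum_congr rfl (fun k _ => rootQ_pow_mul r A hA η hη k), Finset.sum_const,
    Finset.card_range, Nat.cast_smul_eq_nsmul]

theorem rootQ_sum (r : ℕ) (A : E) (ω : K) (hω : IsPrimitiveRoot ω r) (hr : 0 < r) :
    ∑ j ∈ Finset.range r, rootQ r A (ω ^ j) = (r : K) • (1 : E) := by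
  unfold rootQ
  rw [Finset.sum_comm]
  have h1 : ∀ k ∈ Finset.range r, ∑ j ∈ Finset.range r, (ω ^ j) ^ k • A ^ k
      = (if k = 0 then (r : K) else 0) • A ^ k := by
    intro k hk
    rw [← Finset.sum_smul]
    congr 1
    by_cases hk0 : k = 0
    · rw [if_pos hk0, hk0]
      simp
    · rw [if_neg hk0]
      have h2 : ∀ j ∈ Finset.range r, (ω ^ j) ^ k = (ω ^ k) ^ j := by
        intro j _
        rw [← pow_mul, ← pow_mul, mul_comm]
      rw [Finset.sum_congr rfl h2]
      have h3 := mul_geom_sum (ω ^ k) r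
      rw [← pow_mul, mul_comm k r, pow_mul, hω.pow_eq_one, one_pow, sub_self] at h3
      have h4 : ω ^ k - 1 ≠ 0 := by
        rw [sub_ne_zero]
        exact hω.pow_ne_one_of_pos_of_lt hk0 (Finset.mem_range.mp hk)
      exact (mul_eq_zero.mp h3).resolve_left h4
  rw [Finset.sum_congr rfl h1, Finset.sum_eq_single 0]
  · simp
  · intro k _ hk0
    rw [if_neg hk0, zero_smul]
  · intro h
    exact absurd (Finset.mem_range.mpr hr) h

end rootproj

end Cfsg.Agent.Lib.helper22
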