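import Cfsg.Agent.S1453
import Cfsg.Agent.Lib.helper25.S1455Q1

set_option autoImplicit false

namespace Cfsg.Agent.Lib.helper22.S1454F2a

theorem narrow_T {R : Type*} [Group R] [Finite R] (p : ℕ) [Fact p.Prime] (hp : p ≠ 2)
    (hR : IsPGroup p R) (hRn : Cfsg.IsNarrow p R) (hr3 : ¬ Cfsg.PRankLE p 2 R) :
    ∃ (e : R) (T : Subgroup R), T.Characteristic ∧ T.index = p ∧
      ∀ B : Subgroup R, B ≤ T → (∀ b ∈ B, b * e = e * b) → (∀ b ∈ B, b ^ p = 1) →
        Nat.card B ≤ p := by
  classical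
  have hpp : p.Prime := Fact.out
  obtain ⟨R₀, R₁, h0, h1, -, hc, hsup⟩ := hRn.resolve_left hr3
  have hmemC : ∀ x : R, x ∈ R₀ ⊔ R₁ ↔ ∀ a ∈ R₀, a * x = x * a := by
    intro x
    rw [hsup, Subgroup.mem_centralizer_iff]
    rfl
  have hR₁comm : ∀ c ∈ R₁, ∀ d ∈ R₁, c * d = d * c := by
    intro c hc' d hd'
    have := (IsCyclic.commGroup (α := ↥R₁)).mul_comm ⟨c, hc'⟩ ⟨d, hd'⟩
    exact congrArg Subtype.val this
  have hCcomm : ∀ x ∈ R₀ ⊔ R₁, ∀ y ∈ R₀ ⊔ R₁, x * y = y * x := by
    have hle : R₀ ⊔ R₁ ≤ Subgroup.centralizer ((R₀ ⊔ R₁ : Subgroup R) : Set R) := by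
      refine sup_le ?_ ?_
      · intro a ha
        rw [Subgroup.mem_centralizer_iff]
        intro y hy
        exact ((hmemC y).mp hy a ha).symm
      · intro c hc'
        rw [Subgroup.mem_centralizer_iff]
        intro y hy
        have hle2 : R₀ ⊔ R₁ ≤ Subgroup.centralizer ({c} : Set R) := by
          refine sup_le ?_ ?_
          · intro a ha
            rw [Subgroup.mem_centralizer_iff]
            intro h hh
            rw [Set.mem_singleton_iff] at hh
            rw [hh]; exact (hc a ha c hc').symm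
          · intro d hd
            rw [Subgroup.mem_centralizer_iff]
            intro h hh
            rw [Set.mem_singleton_iff] at hh
            rw [hh]; exact hR₁comm c hc' d hd
        have := Subgroup.mem_centralizer_iff.mp (hle2 hy) c (Set.mem_singleton c)
        exact this.symm
    intro x hx y hy
    exact (Subgroup.mem_centralizer_iff.mp (hle hx) y hy).symm
  let E : Subgroup R :=
    { carrier := {x | x ∈ R₀ ⊔ R₁ ∧ x ^ p = 1}
      mul_mem' := by
        rintro x y ⟨hx, hxp⟩ ⟨hy, hyp⟩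
        refine ⟨mul_mem hx hy, ?_⟩
        have hcm : Commute x y := hCcomm x hx y hy
        rw [hcm.mul_pow, hxp, hyp, one_mul]
      one_mem' := ⟨one_mem _, one_pow p⟩
      inv_mem' := by
        rintro x ⟨hx, hxp⟩
        exact ⟨inv_mem hx, by rw [inv_pow, hxp, inv_one]⟩ }
  have hEmem : ∀ x : R, x ∈ E ↔ x ∈ R₀ ⊔ R₁ ∧ x ^ p = 1 := fun x => Iff.rfl
  have hEle : E ≤ R₀ ⊔ R₁ := fun x hx => ((hEmem x).mp hx).1
  have hEexp : ∀ x ∈ E, x ^ p = 1 := fun x hx => ((hEmem x).mp hx).2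
  have hEcomm : IsMulCommutative E :=
    ⟨⟨fun a b => Subtype.ext (hCcomm a.1 (hEle a.2) b.1 (hEle b.2))⟩⟩
  have hEA : Cfsg.IsElementaryAbelian p E := ⟨hEcomm, hEexp⟩
  have hR₀pow : ∀ a ∈ R₀, a ^ p = 1 := by
    intro a ha
    have h := pow_card_eq_one' (G := ↥R₀) (x := ⟨a, ha⟩)
    rw [h0] at h
    simpa using congrArg Subtype.val h
  have hR₀E : R₀ ≤ E := fun a ha => (hEmem a).mpr ⟨Subgroup.mem_sup_left ha, hR₀pow a ha⟩
  have hEcard : Nat.card E ≤ p ^ 2 :=
    Cfsg.Agent.Lib.helper25.S1455Q1.narrow_count p R₀ R₁ E h0 h1 hc hEle hEexp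
  have hEmax : ∀ B : Subgroup R, Cfsg.IsElementaryAbelian p B → E ≤ B → B = E := by
    intro B hB hEB
    refine le_antisymm ?_ hEB
    intro b hb
    refine (hEmem b).mpr ⟨(hmemC b).mpr ?_, hB.2 b hb⟩
    intro a ha
    have := hB.1.is_comm.comm ⟨a, hEB (hR₀E ha)⟩ ⟨b, hb⟩
    exact congrArg Subtype.val this
  have hEp : IsPGroup p E := hR.to_subgroup E
  obtain ⟨k, hk⟩ := IsPGroup.iff_card.mp hEp
  have hk2 : k ≤ 2 := by
    rw [hk] at hEcard
    exact (Nat.pow_le_pow_iff_right hpp.one_lt).mp hEcard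
  have hk1 : 1 ≤ k := by
    have hdvd : Nat.card R₀ ∣ Nat.card E := Subgroup.card_dvd_of_le hR₀E
    rw [h0, hk] at hdvd
    rcases k with _ | k
    · rw [pow_zero, Nat.dvd_one] at hdvd
      exact absurd hdvd hpp.ne_one
    · omega
  have hE2 : Nat.card E = p ^ 2 := by
    rcases Nat.lt_or_ge k 2 with hlt | hge
    · exfalso
      have hk' : k = 1 := by omega
      rw [hk', pow_one] at hk
      have hER₀ : R₀ = E := Subgroup.eq_of_le_of_card_ge hR₀E (by rw [hk, h0])
      haveI : Nontrivial R := by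
        have : 1 < Nat.card R := lt_of_lt_of_le (by rw [h0]; exact hpp.one_lt)
          (Subgroup.card_le_card_group R₀)
        exact Finite.one_lt_card_iff_nontrivial.mp this
      haveI : Nontrivial (Subgroup.center R) := hR.center_nontrivial
      have hZp : IsPGroup p (Subgroup.center R) := hR.to_subgroup _
      obtain ⟨n, hn⟩ := IsPGroup.iff_card.mp hZp
      have hn0 : n ≠ 0 := by
        rintro rfl
        rw [pow_zero] at hn
        have : 1 < Nat.card (Subgroup.center R) := Finite.one_lt_card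
        omega
      have hpdvd : p ∣ Nat.card (Subgroup.center R) := by
        rw [hn]; exact dvd_pow_self p hn0
      obtain ⟨z, hz⟩ := exists_prime_orderOf_dvd_card' p hpdvd
      have hzo : orderOf (z : R) = p := by rw [Subgroup.orderOf_coe]; exact hz
      have hzp : (z : R) ^ p = 1 := by rw [← hzo]; exact pow_orderOf_eq_one _
      have hzc : ∀ y : R, y * (z : R) = (z : R) * y := fun y =>
        Subgroup.mem_center_iff.mp z.2 y
      have hzE : (z : R) ∈ E :=
        (hEmem _).mpr ⟨(hmemC _).mpr (fun a _ => hzc a), hzp⟩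
      have hzR₀ : (z : R) ∈ R₀ := hER₀ ▸ hzE
      have hzpow : Subgroup.zpowers (z : R) = R₀ := by
        refine Subgroup.eq_of_le_of_card_ge (Subgroup.zpowers_le.mpr hzR₀) ?_
        rw [Nat.card_zpowers, hzo, h0]
      have hR₀Z : R₀ ≤ Subgroup.center R := by
        rw [← hzpow, Subgroup.zpowers_le]; exact z.2
      have htop : R₀ ⊔ R₁ = ⊤ := by
        rw [eq_top_iff]
        intro x _
        exact (hmemC x).mpr (fun a ha => (Subgroup.mem_center_iff.mp (hR₀Z ha) x).symm)
      apply hr3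
      intro A hA hAexp
      exact Cfsg.Agent.Lib.helper25.S1455Q1.narrow_count p R₀ R₁ A h0 h1 hc
        (by rw [htop]; exact le_top) hAexp
    · have : k = 2 := by omega
      rw [hk, this]
  obtain ⟨hnot, -, -, hchar, hidx⟩ := Cfsg.Agent.S1453.result p hp hR hr3 E hEA hE2 hEmax
  haveI : IsCyclic ↥R₀ := isCyclic_of_prime_card h0
  obtain ⟨g, hg⟩ := IsCyclic.exists_generator (α := ↥R₀)
  refine ⟨(g : R), _, hchar, hidx, ?_⟩
  intro B hBT hBe hBp
  have hBE : B ≤ E := by
    intro b hb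
    refine (hEmem b).mpr ⟨(hmemC b).mpr ?_, hBp b hb⟩
    intro a ha
    obtain ⟨m, hm⟩ := Subgroup.mem_zpowers_iff.mp (hg ⟨a, ha⟩)
    have ha' : a = (g : R) ^ m := by
      have := congrArg Subtype.val hm
      simpa using this.symm
    rw [ha']
    have hcm : Commute (g : R) b := (hBe b hb).symm
    exact (hcm.zpow_left m).eq
  have hBne : B ≠ E := by
    rintro rfl
    exact hnot hBT
  have hdvd : Nat.card B ∣ p ^ 2 := hE2 ▸ Subgroup.card_dvd_of_le hBE
  obtain ⟨i, hi, hBi⟩ := (Nat.dvd_prime_pow hpp).mp hdvd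
  have hi2 : i ≠ 2 := by
    rintro rfl
    exact hBne (Subgroup.eq_of_le_of_card_ge hBE (by rw [hBi, hE2]))
  rw [hBi]
  calc p ^ i ≤ p ^ 1 := Nat.pow_le_pow_right hpp.pos (by omega)
    _ = p := pow_one p

end Cfsg.Agent.Lib.helper22.S1454F2a
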