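import Mathlib
import Cfsg.Prelude.Def_Solvable

set_option autoImplicit false

namespace Cfsg.Agent.Lib.helper22.S1454T1w

open scoped commutatorElement

theorem part_one_wrap {A : Type*} [Group A] [Finite A] (p : ℕ) [Fact p.Prime]
    (h : ∀ g ∈ commutator A, (orderOf g).Coprime p → g = 1) :
    commutator A ≤ Cfsg.pCore p A ∧ ((Cfsg.pCore p A).index).Coprime p := by
  classical
  have hpp : p.Prime := Fact.out
  have hp : IsPGroup p (commutator A) := by
    rintro ⟨g, hg⟩
    obtain ⟨k, m, hm, hkm⟩ :=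
      Nat.exists_eq_pow_mul_and_not_dvd (orderOf_pos g).ne' p hpp.ne_one
    have hdvd : p ^ k ∣ orderOf g := ⟨m, hkm⟩
    have h1 : orderOf (g ^ p ^ k) = m := by
      rw [orderOf_pow_of_dvd (pow_ne_zero k hpp.ne_zero) hdvd, hkm,
        Nat.mul_div_cancel_left _ (pow_pos hpp.pos k)]
    have h2 : g ^ p ^ k = 1 :=
      h (g ^ p ^ k) (pow_mem hg _)
        (by rw [h1]; exact ((Nat.Prime.coprime_iff_not_dvd hpp).mpr hm).symm)
    exact ⟨k, Subtype.ext h2⟩
  have hN : (commutator A).Normal := by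
    rw [commutator_def]; infer_instance
  have hle : commutator A ≤ Cfsg.pCore p A := le_sSup ⟨hN, hp⟩
  refine ⟨hle, ?_⟩
  obtain ⟨Q, hQ⟩ := hp.exists_le_sylow
  have hQn : (Q : Subgroup A).Normal := by
    constructor
    intro q hq g
    have h3 : g * q * g⁻¹ * q⁻¹ ∈ commutator A := by
      rw [commutator_def]
      exact Subgroup.commutator_mem_commutator (Subgroup.mem_top g) (Subgroup.mem_top q)
    have h4 : g * q * g⁻¹ = (g * q * g⁻¹ * q⁻¹) * q := by group
    rw [h4]
    exact (Q : Subgroup A).mul_mem (hQ h3) hq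
  have hQle : (Q : Subgroup A) ≤ Cfsg.pCore p A := le_sSup ⟨hQn, Q.isPGroup'⟩
  have hdv : (Cfsg.pCore p A).index ∣ (Q : Subgroup A).index := Subgroup.index_dvd_of_le hQle
  have hnd : ¬ p ∣ (Q : Subgroup A).index := Q.not_dvd_index
  have hnd' : ¬ p ∣ (Cfsg.pCore p A).index := fun hh => hnd (hh.trans hdv)
  exact ((Nat.Prime.coprime_iff_not_dvd hpp).mpr hnd').symm

end Cfsg.Agent.Lib.helper22.S1454T1w
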