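import Cfsg.Agent.Lib.helper22.S1454X3

set_option autoImplicit false

namespace Cfsg.Agent.Lib.helper22.S1454X2

theorem comm_of_card_pow_le_two {K : Type*} [Group K] [Finite K] (p : ℕ) [Fact p.Prime] (i : ℕ)
    (hi : i ≤ 2) (hK : Nat.card K = p ^ i) : ∀ a b : K, a * b = b * a := by
  interval_cases i
  · rw [pow_zero] at hK
    haveI : Subsingleton K := (Nat.card_eq_one_iff_unique.mp hK).1
    intro a b
    rw [Subsingleton.elim a b]
  · rw [pow_one] at hK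
    haveI : IsCyclic K := isCyclic_of_prime_card hK
    intro a b
    exact (IsCyclic.commGroup (α := K)).mul_comm a b
  · exact IsPGroup.commutative_of_card_eq_prime_sq hK

theorem comm_all {G : Type*} [Group G] [Finite G] (p : ℕ) [Fact p.Prime] (T : Subgroup G)
    (hT3 : Nat.card T = p ^ 3) (t₁ t₂ : G) (h1 : t₁ ∈ T) (h2 : t₂ ∈ T)
    (hne : t₁ * t₂ ≠ t₂ * t₁) (g : G) (hg1 : g * t₁ = t₁ * g) (hg2 : g * t₂ = t₂ * g) :
    ∀ t ∈ T, g * t = t * g := by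
  classical
  have hpp : p.Prime := Fact.out
  have hmem : ∀ t : G, t ∈ T ⊓ Subgroup.centralizer ({g} : Set G) ↔ t ∈ T ∧ g * t = t * g := by
    intro t
    rw [Subgroup.mem_inf, Subgroup.mem_centralizer_iff]
    constructor
    · rintro ⟨ht, h⟩
      exact ⟨ht, h g (Set.mem_singleton g)⟩
    · rintro ⟨ht, h⟩
      refine ⟨ht, fun x hx => ?_⟩
      rw [Set.mem_singleton_iff] at hx
      rw [hx]; exact h
  have hKT : T ⊓ Subgroup.centralizer ({g} : Set G) ≤ T := inf_le_left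
  have hdvd : Nat.card ↥(T ⊓ Subgroup.centralizer ({g} : Set G)) ∣ p ^ 3 :=
    hT3 ▸ Subgroup.card_dvd_of_le hKT
  obtain ⟨i, hi, hKi⟩ := (Nat.dvd_prime_pow hpp).mp hdvd
  by_cases hi3 : i = 3
  · have hKeq : T ⊓ Subgroup.centralizer ({g} : Set G) = T :=
      Subgroup.eq_of_le_of_card_ge hKT (by rw [hKi, hi3, hT3])
    intro t ht
    have ht' : t ∈ T ⊓ Subgroup.centralizer ({g} : Set G) := by rw [hKeq]; exact ht
    exact ((hmem t).mp ht').2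
  · exfalso
    have hcomm := comm_of_card_pow_le_two
      (K := ↥(T ⊓ Subgroup.centralizer ({g} : Set G))) p i (by omega) hKi
    have := hcomm ⟨t₁, (hmem t₁).mpr ⟨h1, hg1⟩⟩ ⟨t₂, (hmem t₂).mpr ⟨h2, hg2⟩⟩
    exact hne (congrArg Subtype.val this)

theorem eq_mul_centralizer {G : Type*} [Group G] [Finite G] (p : ℕ) [Fact p.Prime]
    (R T : Subgroup G) (hTR : T ≤ R) (hT3 : Nat.card T = p ^ 3)
    (hTna : ¬ ∀ x ∈ T, ∀ y ∈ T, x * y = y * x)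
    (h : ∀ r ∈ R, ∀ t ∈ T, r * t * r⁻¹ * t⁻¹ ∈ T ⊓ Subgroup.centralizer (T : Set G)) :
    ∀ r ∈ R, ∃ t ∈ T, ∃ c ∈ R ⊓ Subgroup.centralizer (T : Set G), r = t * c := by
  classical
  have hpp : p.Prime := Fact.out
  have hZcard := Cfsg.Agent.Lib.helper22.S1454X3.card_center_cube p T hT3 hTna
  obtain ⟨t₁, h1, t₂, h2, hne⟩ : ∃ t₁ ∈ T, ∃ t₂ ∈ T, t₁ * t₂ ≠ t₂ * t₁ := by
    by_contra hcon
    apply hTna
    intro x hx y hy
    by_contra hxy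
    exact hcon ⟨x, hx, y, hy, hxy⟩
  have hZc : ∀ z ∈ T ⊓ Subgroup.centralizer (T : Set G), ∀ x ∈ T, x * z = z * x := by
    intro z hz x hx
    exact Subgroup.mem_centralizer_iff.mp (Subgroup.mem_inf.mp hz).2 x hx
  have hmul : ∀ t ∈ T, ∀ d ∈ T, ∀ d' ∈ T,
      (d * d') * t * (d * d')⁻¹ * t⁻¹ = (d * t * d⁻¹ * t⁻¹) * (d' * t * d'⁻¹ * t⁻¹) := by
    intro t ht d hd d' hd'
    have hz' := h d' (hTR hd') t ht
    have hz := h d (hTR hd) t ht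
    have e1 : (d * d') * t * (d * d')⁻¹ * t⁻¹
        = d * (d' * t * d'⁻¹ * t⁻¹) * (t * d⁻¹ * t⁻¹) := by group
    have e2 : (d' * t * d'⁻¹ * t⁻¹) * d * (t * d⁻¹ * t⁻¹)
        = (d' * t * d'⁻¹ * t⁻¹) * (d * t * d⁻¹ * t⁻¹) := by group
    rw [e1, hZc _ hz' d hd, e2]
    exact (hZc _ hz' _ (Subgroup.mem_inf.mp hz).1).symm
  let Ψ : ↥T →* ↥(T ⊓ Subgroup.centralizer (T : Set G)) ×
      ↥(T ⊓ Subgroup.centralizer (T : Set G)) :=
    { toFun := fun d => (⟨(d : G) * t₁ * (d : G)⁻¹ * t₁⁻¹, h d (hTR d.2) t₁ h1⟩,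
        ⟨(d : G) * t₂ * (d : G)⁻¹ * t₂⁻¹, h d (hTR d.2) t₂ h2⟩)
      map_one' := by
        apply Prod.ext <;> apply Subtype.ext <;> simp
      map_mul' := by
        intro d d'
        apply Prod.ext <;> apply Subtype.ext
        · exact hmul t₁ h1 d d.2 d' d'.2
        · exact hmul t₂ h2 d d.2 d' d'.2 }
  have hΨ1 : ∀ d : ↥T, (((Ψ d).1 : ↥(T ⊓ Subgroup.centralizer (T : Set G))) : G)
      = (d : G) * t₁ * (d : G)⁻¹ * t₁⁻¹ := fun d => rfl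
  have hΨ2 : ∀ d : ↥T, (((Ψ d).2 : ↥(T ⊓ Subgroup.centralizer (T : Set G))) : G)
      = (d : G) * t₂ * (d : G)⁻¹ * t₂⁻¹ := fun d => rfl
  have hcomm_of : ∀ (a b t : G), a * t * a⁻¹ * t⁻¹ = b * t * b⁻¹ * t⁻¹ →
      (a⁻¹ * b) * t = t * (a⁻¹ * b) := by
    intro a b t ht
    have h' : a * t * a⁻¹ = b * t * b⁻¹ := mul_right_cancel ht
    calc (a⁻¹ * b) * t = a⁻¹ * (b * t * b⁻¹) * b := by group
      _ = a⁻¹ * (a * t * a⁻¹) * b := by rw [h']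
      _ = t * (a⁻¹ * b) := by group
  have hker : Ψ.ker ≤ (T ⊓ Subgroup.centralizer (T : Set G)).subgroupOf T := by
    intro d hd
    rw [MonoidHom.mem_ker] at hd
    have hd1 : (d : G) * t₁ * (d : G)⁻¹ * t₁⁻¹ = 1 := by
      rw [← hΨ1 d, hd]; rfl
    have hd2 : (d : G) * t₂ * (d : G)⁻¹ * t₂⁻¹ = 1 := by
      rw [← hΨ2 d, hd]; rfl
    have hc1 : (d : G) * t₁ = t₁ * (d : G) := by
      have h' : (d : G) * t₁ * (d : G)⁻¹ = t₁ := mul_inv_eq_one.mp hd1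
      calc (d : G) * t₁ = ((d : G) * t₁ * (d : G)⁻¹) * (d : G) := by group
        _ = t₁ * (d : G) := by rw [h']
    have hc2 : (d : G) * t₂ = t₂ * (d : G) := by
      have h' : (d : G) * t₂ * (d : G)⁻¹ = t₂ := mul_inv_eq_one.mp hd2
      calc (d : G) * t₂ = ((d : G) * t₂ * (d : G)⁻¹) * (d : G) := by group
        _ = t₂ * (d : G) := by rw [h']
    rw [Subgroup.mem_subgroupOf, Subgroup.mem_inf]
    refine ⟨d.2, Subgroup.mem_centralizer_iff.mpr ?_⟩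
    intro t ht
    exact (comm_all p T hT3 t₁ t₂ h1 h2 hne d hc1 hc2 t ht).symm
  have hcardker : Nat.card Ψ.ker ≤ p := by
    calc Nat.card Ψ.ker
        ≤ Nat.card ((T ⊓ Subgroup.centralizer (T : Set G)).subgroupOf T) :=
          Subgroup.card_le_of_le hker
      _ = Nat.card ↥(T ⊓ Subgroup.centralizer (T : Set G)) :=
          Nat.card_congr (Subgroup.subgroupOfEquivOfLe inf_le_left).toEquiv
      _ = p := hZcard
  have hmulcard : Nat.card Ψ.ker * Nat.card Ψ.range = p ^ 3 := by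
    rw [← Subgroup.index_ker, Subgroup.card_mul_index, hT3]
  have hprod : Nat.card (↥(T ⊓ Subgroup.centralizer (T : Set G)) ×
      ↥(T ⊓ Subgroup.centralizer (T : Set G))) = p ^ 2 := by
    rw [Nat.card_prod, hZcard]; ring
  have hrange_le : Nat.card Ψ.range ≤ p ^ 2 :=
    hprod ▸ Subgroup.card_le_card_group _
  have hrange : Nat.card Ψ.range = p ^ 2 := by
    have h3 : p * p ^ 2 ≤ p * Nat.card Ψ.range := by
      calc p * p ^ 2 = p ^ 3 := by ring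
        _ = Nat.card Ψ.ker * Nat.card Ψ.range := hmulcard.symm
        _ ≤ p * Nat.card Ψ.range := Nat.mul_le_mul_right _ hcardker
    exact le_antisymm hrange_le (Nat.le_of_mul_le_mul_left h3 hpp.pos)
  have hsurj : Function.Surjective Ψ := by
    rw [← MonoidHom.range_eq_top]
    exact Subgroup.eq_top_of_card_eq _ (by rw [hrange, hprod])
  intro r hr
  obtain ⟨d, hd⟩ := hsurj (⟨r * t₁ * r⁻¹ * t₁⁻¹, h r hr t₁ h1⟩,
    ⟨r * t₂ * r⁻¹ * t₂⁻¹, h r hr t₂ h2⟩)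
  have hd1 : (d : G) * t₁ * (d : G)⁻¹ * t₁⁻¹ = r * t₁ * r⁻¹ * t₁⁻¹ := by
    rw [← hΨ1 d, hd]
  have hd2 : (d : G) * t₂ * (d : G)⁻¹ * t₂⁻¹ = r * t₂ * r⁻¹ * t₂⁻¹ := by
    rw [← hΨ2 d, hd]
  refine ⟨(d : G), d.2, (d : G)⁻¹ * r,
    Subgroup.mem_inf.mpr ⟨R.mul_mem (R.inv_mem (hTR d.2)) hr, ?_⟩, by group⟩
  rw [Subgroup.mem_centralizer_iff]
  intro t ht
  exact (comm_all p T hT3 t₁ t₂ h1 h2 hne _ (hcomm_of _ _ t₁ hd1) (hcomm_of _ _ t₂ hd2) t ht).symm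

end Cfsg.Agent.Lib.helper22.S1454X2
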