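import Cfsg.Agent.Lib.helper22.S1454X2

set_option autoImplicit false

namespace Cfsg.Agent.Lib.helper22.S1454X2b

open scoped commutatorElement

theorem prod_centralizer {H : Type*} [Group H] [Finite H] (p : ℕ) [Fact p.Prime]
    (R D : Subgroup H) (hR : IsPGroup p R) (hDR : D ≤ R) (hD3 : Nat.card D = p ^ 3)
    (hZ : Nat.card ↥(D ⊓ Subgroup.centralizer (D : Set H)) = p)
    (hDn : R ≤ Subgroup.normalizer (D : Set H))
    (hcomm : ∀ d ∈ D, ∀ r ∈ R, ⁅d, r⁆ ∈ Subgroup.centralizer (D : Set H)) :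
    ∀ r ∈ R, ∃ d ∈ D, ∃ c ∈ R ⊓ Subgroup.centralizer (D : Set H), r = d * c := by
  classical
  have hpp : p.Prime := Fact.out
  have hTna : ¬ ∀ x ∈ D, ∀ y ∈ D, x * y = y * x := by
    intro hab
    have hle : D ≤ D ⊓ Subgroup.centralizer (D : Set H) := by
      intro x hx
      refine Subgroup.mem_inf.mpr ⟨hx, Subgroup.mem_centralizer_iff.mpr ?_⟩
      intro y hy
      exact hab y hy x hx
    have h1 : Nat.card D ≤ Nat.card ↥(D ⊓ Subgroup.centralizer (D : Set H)) :=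
      Subgroup.card_le_of_le hle
    rw [hD3, hZ] at h1
    have h2 : p ^ 1 < p ^ 3 := Nat.pow_lt_pow_right hpp.one_lt (by norm_num)
    rw [pow_one] at h2
    omega
  have h : ∀ r ∈ R, ∀ t ∈ D, r * t * r⁻¹ * t⁻¹ ∈ D ⊓ Subgroup.centralizer (D : Set H) := by
    intro r hr t ht
    refine Subgroup.mem_inf.mpr ⟨?_, ?_⟩
    · have h1 : r * t * r⁻¹ ∈ D := (Subgroup.mem_normalizer_iff.mp (hDn hr) t).mp ht
      exact D.mul_mem h1 (D.inv_mem ht)
    · have h1 := (Subgroup.centralizer (D : Set H)).inv_mem (hcomm t ht r hr)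
      have e : (⁅t, r⁆)⁻¹ = r * t * r⁻¹ * t⁻¹ := by
        rw [commutatorElement_def]; group
      rw [e] at h1
      exact h1
  exact Cfsg.Agent.Lib.helper22.S1454X2.eq_mul_centralizer p R D hDR hD3 hTna h

end Cfsg.Agent.Lib.helper22.S1454X2b
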