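import Mathlib

set_option autoImplicit false

namespace Cfsg.Agent.Lib.helper22.S1454X3

theorem card_center_of_cube {H : Type*} [Group H] [Finite H] (p : ℕ) [Fact p.Prime]
    (hH3 : Nat.card H = p ^ 3) (hna : ¬ ∀ x y : H, x * y = y * x) :
    Nat.card (Subgroup.center H) = p := by
  classical
  have hpp : p.Prime := Fact.out
  have hH : IsPGroup p H := IsPGroup.of_card hH3
  haveI : Nontrivial H := by
    have : 1 < Nat.card H := by
      rw [hH3]; exact Nat.one_lt_pow (by norm_num) hpp.one_lt
    exact Finite.one_lt_card_iff_nontrivial.mp this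
  haveI : Nontrivial (Subgroup.center H) := hH.center_nontrivial
  have hdvd : Nat.card (Subgroup.center H) ∣ p ^ 3 :=
    hH3 ▸ Subgroup.card_subgroup_dvd_card _
  obtain ⟨k, hk3, hk⟩ := (Nat.dvd_prime_pow hpp).mp hdvd
  have hk0 : k ≠ 0 := by
    rintro rfl
    rw [pow_zero] at hk
    have : 1 < Nat.card (Subgroup.center H) := Finite.one_lt_card
    omega
  have hk3' : k ≠ 3 := by
    rintro rfl
    have htop : Subgroup.center H = ⊤ :=
      Subgroup.eq_top_of_card_eq _ (by rw [hk, hH3])
    apply hna
    intro x y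
    have hy : y ∈ Subgroup.center H := htop ▸ Subgroup.mem_top y
    exact (Subgroup.mem_center_iff.mp hy x)
  have hk2 : k ≠ 2 := by
    rintro rfl
    have hidx : (Subgroup.center H).index = p := by
      have h1 := Subgroup.card_mul_index (Subgroup.center H)
      rw [hk, hH3] at h1
      have h2 : p ^ 2 * (Subgroup.center H).index = p ^ 2 * p := by rw [h1]; ring
      exact Nat.eq_of_mul_eq_mul_left (pow_pos hpp.pos 2) h2
    have hcardq : Nat.card (H ⧸ Subgroup.center H) = p := by
      rw [← Subgroup.index_eq_card]; exact hidx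
    haveI : IsCyclic (H ⧸ Subgroup.center H) := isCyclic_of_prime_card hcardq
    apply hna
    exact commutative_of_cyclic_center_quotient (QuotientGroup.mk' (Subgroup.center H))
      (by rw [QuotientGroup.ker_mk'])
  have hk1 : k = 1 := by omega
  rw [hk, hk1, pow_one]

theorem card_center_cube {G : Type*} [Group G] [Finite G] (p : ℕ) [Fact p.Prime]
    (T : Subgroup G) (hT3 : Nat.card T = p ^ 3)
    (hTna : ¬ ∀ x ∈ T, ∀ y ∈ T, x * y = y * x) :
    Nat.card ↥(T ⊓ Subgroup.centralizer (T : Set G)) = p := by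
  classical
  have hna : ¬ ∀ x y : ↥T, x * y = y * x := by
    intro h
    apply hTna
    intro x hx y hy
    exact congrArg Subtype.val (h ⟨x, hx⟩ ⟨y, hy⟩)
  have h1 := card_center_of_cube (H := ↥T) p hT3 hna
  have h2 : (T ⊓ Subgroup.centralizer (T : Set G)).subgroupOf T = Subgroup.center ↥T := by
    ext x
    rw [Subgroup.mem_subgroupOf, Subgroup.mem_inf, Subgroup.mem_centralizer_iff,
      Subgroup.mem_center_iff]
    constructor
    · rintro ⟨-, h⟩ y
      exact Subtype.ext (h y.1 y.2)
    · intro h
      exact ⟨x.2, fun y hy => congrArg Subtype.val (h ⟨y, hy⟩)⟩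
  rw [← h1, ← h2]
  exact (Nat.card_congr (Subgroup.subgroupOfEquivOfLe inf_le_left).toEquiv).symm

end Cfsg.Agent.Lib.helper22.S1454X3
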