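import Mathlib

namespace Cfsg.Agent.Lib.helper22.S1456M3

open scoped commutatorElement

variable {G : Type*} [Group G] [Finite G]

theorem comm_ne (p : ℕ) [Fact p.Prime] (P D : Subgroup G) (hP : IsPGroup p P) (hDP : D ≤ P)
    (hD : D ≠ ⊥) : ⁅D, P⁆ ≠ D := by
  intro h
  have hnil : Group.IsNilpotent P := hP.isNilpotent
  obtain ⟨n, hn⟩ := (Subgroup.isNilpotent_iff_lowerCentralSeries P).mp hnil
  have key : ∀ k : ℕ, D ≤ P.lowerCentralSeries k := by
    intro k
    induction k with
    | zero => simpa using hDP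
    | succ k ih =>
      rw [Subgroup.lowerCentralSeries_succ]
      calc D = ⁅D, P⁆ := h.symm
        _ ≤ ⁅P.lowerCentralSeries k, P⁆ := Subgroup.commutator_mono ih le_rfl
  exact hD (le_bot_iff.mp (hn ▸ key n))

theorem card_le_mul (p : ℕ) (P D : Subgroup G) (e : G) (he : e ∈ P)
    (hfix : Nat.card ↥(D ⊓ Subgroup.centralizer ({e} : Set G)) ≤ p) :
    Nat.card D ≤ p * Nat.card ↥⁅D, P⁆ := by
  classical
  let F : ↥D → ↥⁅D, P⁆ := fun d => ⟨⁅(d : G), e⁆, Subgroup.commutator_mem_commutator d.2 he⟩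
  have hmem : ∀ r d : ↥D, F r = F d →
      (r : G)⁻¹ * (d : G) ∈ D ⊓ Subgroup.centralizer ({e} : Set G) := by
    intro r d hrd
    refine Subgroup.mem_inf.mpr ⟨D.mul_mem (D.inv_mem r.2) d.2, ?_⟩
    rw [Subgroup.mem_centralizer_iff]
    intro h hh
    rw [Set.mem_singleton_iff] at hh
    have h1 : ⁅(r : G), e⁆ = ⁅(d : G), e⁆ := congrArg Subtype.val hrd
    rw [commutatorElement_def, commutatorElement_def] at h1
    have h2 : (r : G) * e * (r : G)⁻¹ = (d : G) * e * (d : G)⁻¹ := mul_right_cancel h1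
    rw [hh]
    calc e * ((r : G)⁻¹ * (d : G)) = (r : G)⁻¹ * ((r : G) * e * (r : G)⁻¹) * (d : G) := by group
      _ = (r : G)⁻¹ * ((d : G) * e * (d : G)⁻¹) * (d : G) := by rw [h2]
      _ = (r : G)⁻¹ * (d : G) * e := by group
  have hrep : ∀ y : Set.range F, ∃ d : ↥D, F d = y.1 := fun y => y.2
  choose rep hrep' using hrep
  let Φ : ↥D → ↥(D ⊓ Subgroup.centralizer ({e} : Set G)) × ↥⁅D, P⁆ := fun d =>
    (⟨((rep ⟨F d, d, rfl⟩ : ↥D) : G)⁻¹ * (d : G), hmem _ _ (hrep' ⟨F d, d, rfl⟩)⟩, F d)
  have hinj : Function.Injective Φ := by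
    intro d d' hdd
    have h2 : F d = F d' := congrArg Prod.snd hdd
    have h1 : ((rep ⟨F d, d, rfl⟩ : ↥D) : G)⁻¹ * (d : G)
        = ((rep ⟨F d', d', rfl⟩ : ↥D) : G)⁻¹ * (d' : G) :=
      congrArg (fun x => ((x.1 : ↥(D ⊓ Subgroup.centralizer ({e} : Set G))) : G)) hdd
    have h3 : (⟨F d, d, rfl⟩ : Set.range F) = ⟨F d', d', rfl⟩ := Subtype.ext h2
    rw [h3] at h1
    exact Subtype.ext (mul_left_cancel h1)
  calc Nat.card D ≤ Nat.card (↥(D ⊓ Subgroup.centralizer ({e} : Set G)) × ↥⁅D, P⁆) :=
        Nat.card_le_card_of_injective Φ hinj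
    _ = Nat.card ↥(D ⊓ Subgroup.centralizer ({e} : Set G)) * Nat.card ↥⁅D, P⁆ := Nat.card_prod _ _
    _ ≤ p * Nat.card ↥⁅D, P⁆ := Nat.mul_le_mul_right _ hfix

theorem comm_triv (p : ℕ) [Fact p.Prime] (D D1 : Subgroup G) [D.Normal] [D1.Normal] (h1 : D1 ≤ D)
    (hpD : IsPGroup p D) (hcard : Nat.card D ≤ p * Nat.card D1) :
    ∀ g ∈ commutator G, ∀ d ∈ D, g * d * g⁻¹ * d⁻¹ ∈ D1 := by
  classical
  let q : G →* G ⧸ D1 := QuotientGroup.mk' D1
  let φ : ↥D →* G ⧸ D1 := q.comp D.subtype
  have hrange : φ.range = D.map q := by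
    rw [MonoidHom.range_comp, Subgroup.range_subtype]
  have hNn : (D.map q).Normal :=
    Subgroup.Normal.map inferInstance q (QuotientGroup.mk'_surjective D1)
  have hker : φ.ker = D1.subgroupOf D := by
    ext x
    simp only [φ, q, MonoidHom.mem_ker, MonoidHom.comp_apply, Subgroup.subtype_apply,
      QuotientGroup.mk'_apply, QuotientGroup.eq_one_iff, Subgroup.mem_subgroupOf]
  have hc1 : Nat.card φ.ker * Nat.card φ.range = Nat.card D := by
    rw [← Subgroup.index_ker]; exact Subgroup.card_mul_index _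
  have hc2 : Nat.card φ.ker = Nat.card D1 := by
    rw [hker]; exact Nat.card_congr (Subgroup.subgroupOfEquivOfLe h1).toEquiv
  have hc3 : Nat.card φ.range ≤ p := by
    have hpos : 0 < Nat.card D1 := Nat.card_pos
    rw [hc2] at hc1
    rw [← hc1, mul_comm p] at hcard
    exact Nat.le_of_mul_le_mul_left hcard hpos
  have hpr : IsPGroup p φ.range := by rw [hrange]; exact hpD.map q
  have hcyc0 : IsCyclic φ.range := by
    obtain ⟨n, hn⟩ := IsPGroup.iff_card.mp hpr
    have hp := (Fact.out : p.Prime)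
    rcases n with _ | _ | n
    · haveI : Subsingleton φ.range :=
        Finite.card_le_one_iff_subsingleton.mp (by rw [hn, pow_zero])
      exact isCyclic_of_subsingleton
    · exact isCyclic_of_prime_card (p := p) (by simpa using hn)
    · exfalso
      rw [hn] at hc3
      have : p ^ 2 ≤ p ^ (n + 1 + 1) := Nat.pow_le_pow_right hp.pos (by omega)
      have h2 : p < p ^ 2 := by nlinarith [hp.two_le]
      omega
  have hcyc : IsCyclic ↥(D.map q) := hrange ▸ hcyc0
  letI := (hcyc.mulAutMulEquiv _).toMonoidHom.commGroupOfInjective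
    (hcyc.mulAutMulEquiv _).injective
  have hk := Abelianization.commutator_subset_ker (MulAut.conjNormal (H := D.map q))
  intro g hg d hd
  have hg' : q g ∈ commutator (G ⧸ D1) := by
    have hle : (commutator G).map q ≤ commutator (G ⧸ D1) := by
      rw [commutator_def, Subgroup.map_commutator, commutator_def]
      exact Subgroup.commutator_mono le_top le_top
    exact hle (Subgroup.mem_map_of_mem q hg)
  have h2 := hk hg'
  rw [MonoidHom.mem_ker] at h2
  have h3 : q g * q d * (q g)⁻¹ = q d := by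
    have := congrArg (fun f : MulAut ↥(D.map q) =>
      ((f ⟨q d, Subgroup.mem_map_of_mem q hd⟩ : ↥(D.map q)) : G ⧸ D1)) h2
    simpa [MulAut.conjNormal_apply] using this
  have h4 : q (g * d * g⁻¹ * d⁻¹) = 1 := by
    rw [map_mul, map_mul, map_mul, map_inv, map_inv, h3, mul_inv_cancel]
  exact (QuotientGroup.eq_one_iff _).mp h4

theorem cent_of_small_fix (p : ℕ) [Fact p.Prime] (P D : Subgroup G) [P.Normal] [D.Normal]
    (hP : IsPGroup p P) (hDP : D ≤ P) (e : G) (he : e ∈ P)
    (hfix : Nat.card ↥(D ⊓ Subgroup.centralizer ({e} : Set G)) ≤ p) :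
    ∀ g ∈ commutator G, (orderOf g).Coprime p → g ∈ Subgroup.centralizer (D : Set G) := by
  have main : ∀ n : ℕ, ∀ D : Subgroup G, D.Normal → D ≤ P → Nat.card D = n →
      Nat.card ↥(D ⊓ Subgroup.centralizer ({e} : Set G)) ≤ p →
      ∀ g ∈ commutator G, (orderOf g).Coprime p → g ∈ Subgroup.centralizer (D : Set G) := by
    intro n
    induction n using Nat.strong_induction_on with
    | _ n ih =>
      intro D hDn hDP hn hfix g hg hcop
      haveI := hDn
      by_cases hD : D = ⊥
      · rw [Subgroup.mem_centralizer_iff]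
        intro d hd
        rw [hD] at hd
        have : d = 1 := Subgroup.mem_bot.mp hd
        rw [this]; simp
      · have hD1n : (⁅D, P⁆ : Subgroup G).Normal := Subgroup.commutator_normal D P
        have hD1D : ⁅D, P⁆ ≤ D := Subgroup.commutator_le_left D P
        have hD1ne : ⁅D, P⁆ ≠ D := comm_ne p P D hP hDP hD
        have hlt : Nat.card ↥⁅D, P⁆ < n := by
          rw [← hn]
          exact lt_of_le_of_ne (Subgroup.card_le_of_le hD1D)
            (fun h => hD1ne (Subgroup.eq_of_le_of_card_ge hD1D h.ge))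
        have hfix1 : Nat.card ↥(⁅D, P⁆ ⊓ Subgroup.centralizer ({e} : Set G)) ≤ p :=
          le_trans (Subgroup.card_le_of_le (inf_le_inf_right _ hD1D)) hfix
        have hg1 := ih _ hlt ⁅D, P⁆ hD1n (hD1D.trans hDP) rfl hfix1 g hg hcop
        have hcard := card_le_mul p P D e he hfix
        have htriv := comm_triv p D ⁅D, P⁆ hD1D (hP.to_le hDP) hcard g hg
        rw [Subgroup.mem_centralizer_iff]
        intro d hd
        have hz : g * d * g⁻¹ * d⁻¹ ∈ ⁅D, P⁆ := htriv d hd
        have hgz : (g * d * g⁻¹ * d⁻¹) * g = g * (g * d * g⁻¹ * d⁻¹) :=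
          (Subgroup.mem_centralizer_iff.mp hg1) _ hz
        generalize hzdef : g * d * g⁻¹ * d⁻¹ = z at hz hgz
        have hpow : ∀ k : ℕ, g ^ k * d * (g ^ k)⁻¹ = z ^ k * d := by
          intro k
          induction k with
          | zero => simp
          | succ k ihk =>
            have e1 : g ^ (k + 1) * d * (g ^ (k + 1))⁻¹ = g * (g ^ k * d * (g ^ k)⁻¹) * g⁻¹ := by
              rw [pow_succ']; group
            rw [e1, ihk]
            have hc : g * z ^ k = z ^ k * g :=
              (Commute.pow_right (show Commute g z from hgz.symm) k).eq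
            calc g * (z ^ k * d) * g⁻¹ = (g * z ^ k) * d * g⁻¹ := by group
              _ = z ^ k * g * d * g⁻¹ := by rw [hc]
              _ = z ^ k * (g * d * g⁻¹ * d⁻¹) * d := by group
              _ = z ^ (k + 1) * d := by rw [hzdef, pow_succ]
        have h1 := hpow (orderOf g)
        rw [pow_orderOf_eq_one] at h1
        have hz1 : z ^ orderOf g = 1 := by
          have : d = z ^ orderOf g * d := by simpa using h1
          exact (mul_eq_right.mp this.symm)
        obtain ⟨a, ha⟩ := (hP.to_le (hD1D.trans hDP)) ⟨z, hz⟩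
        have hz2 : z ^ p ^ a = 1 := by simpa using congrArg Subtype.val ha
        have hz3 : z = 1 := by
          have hd1 := orderOf_dvd_of_pow_eq_one hz1
          have hd2 := orderOf_dvd_of_pow_eq_one hz2
          have hdv : orderOf z ∣ Nat.gcd (orderOf g) (p ^ a) := Nat.dvd_gcd hd1 hd2
          have hc' : Nat.Coprime (orderOf g) (p ^ a) := Nat.Coprime.pow_right a hcop
          rw [Nat.Coprime] at hc'
          rw [hc'] at hdv
          exact orderOf_eq_one_iff.mp (Nat.dvd_one.mp hdv)
        rw [hz3] at hzdef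
        have : g * d * g⁻¹ = d := by
          have := congrArg (· * d) hzdef
          simpa using this
        calc d * g = (g * d * g⁻¹) * g := by rw [this]
          _ = g * d := by group
  exact main (Nat.card D) D inferInstance hDP rfl hfix

end Cfsg.Agent.Lib.helper22.S1456M3
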