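import Mathlib

set_option autoImplicit false

namespace Cfsg.Agent.Lib.helper22

open Subgroup
open scoped commutatorElement

section SelfCent

variable {G : Type*} [Group G]

theorem sc_comm_mem {x : G} (hC : Subgroup.centralizer ({x} : Set G) = Subgroup.zpowers x)
    {g : G} (hg : g * x = x * g) : g ∈ Subgroup.zpowers x := by
  rw [← hC, Subgroup.mem_centralizer_iff]
  intro h hh
  rw [Set.mem_singleton_iff] at hh
  rw [hh, hg]

theorem sc_zpowers_eq {p : ℕ} [hp : Fact p.Prime] {x : G} (hx : orderOf x = p) {y : G}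
    (hy : y ∈ Subgroup.zpowers x) (hy1 : y ≠ 1) : Subgroup.zpowers y = Subgroup.zpowers x := by
  have hfin : Finite (Subgroup.zpowers x) := by
    apply Nat.finite_of_card_ne_zero
    rw [Nat.card_zpowers, hx]
    exact hp.out.ne_zero
  apply Subgroup.eq_of_le_of_card_ge
  · rw [Subgroup.zpowers_le]
    exact hy
  · rw [Nat.card_zpowers, Nat.card_zpowers, hx]
    have hdvd : orderOf y ∣ p := by
      rw [← hx]
      obtain ⟨k, rfl⟩ := hy
      exact orderOf_dvd_of_pow_eq_one (by rw [← zpow_natCast, ← zpow_mul, mul_comm, zpow_mul,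
        zpow_natCast, pow_orderOf_eq_one, one_zpow])
    rcases (Nat.dvd_prime hp.out).mp hdvd with h | h
    · exact absurd (orderOf_eq_one_iff.mp h) hy1
    · exact h.ge

theorem sc_mem_of_comm_gen {p : ℕ} [hp : Fact p.Prime] {x : G} (hx : orderOf x = p)
    (hC : Subgroup.centralizer ({x} : Set G) = Subgroup.zpowers x) {y : G}
    (hy : y ∈ Subgroup.zpowers x) (hy1 : y ≠ 1) {g : G} (hg : g * y = y * g) :
    g ∈ Subgroup.zpowers x := by
  have hxy : x ∈ Subgroup.zpowers y := by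
    rw [sc_zpowers_eq hx hy hy1]
    exact Subgroup.mem_zpowers x
  obtain ⟨k, hk⟩ := hxy
  apply sc_comm_mem hC
  have hc : Commute g y := hg
  have := hc.zpow_right k
  rw [← hk]
  exact this

theorem sc_mem_normalizer {p : ℕ} [hp : Fact p.Prime] {x : G} (hx : orderOf x = p) {g : G}
    (hg : g * x * g⁻¹ ∈ Subgroup.zpowers x) :
    g ∈ Subgroup.normalizer (Subgroup.zpowers x : Set G) := by
  have hne : g * x * g⁻¹ ≠ 1 := by
    intro h
    have hx1 : x = 1 := by
      have := congrArg (fun z => g⁻¹ * z * g) h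
      simpa [mul_assoc] using this
    rw [hx1, orderOf_one] at hx
    exact hp.out.ne_one hx.symm
  have hz := sc_zpowers_eq hx hg hne
  have hconj : ∀ k : ℤ, g * x ^ k * g⁻¹ = (g * x * g⁻¹) ^ k := by
    intro k
    have := (MulAut.conj g).toMonoidHom.map_zpow x k
    simpa using this
  have hxmem : x ∈ Subgroup.zpowers (g * x * g⁻¹) := by
    rw [hz]
    exact Subgroup.mem_zpowers x
  obtain ⟨k, hk⟩ := hxmem
  have hk' : g⁻¹ * x * g = x ^ k := by
    have h1 : (g * x * g⁻¹) ^ k = x := hk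
    rw [← hconj] at h1
    calc g⁻¹ * x * g = g⁻¹ * (g * x ^ k * g⁻¹) * g := by rw [h1]
      _ = x ^ k := by group
  rw [Subgroup.mem_normalizer_iff]
  intro h
  constructor
  · rintro ⟨m, rfl⟩
    show g * x ^ m * g⁻¹ ∈ _
    rw [hconj]
    exact Subgroup.zpow_mem _ hg m
  · intro hh
    obtain ⟨m, hm⟩ := hh
    have hm' : x ^ m = g * h * g⁻¹ := hm
    have : h = (g⁻¹ * x * g) ^ m := by
      have h2 := (MulAut.conj g⁻¹).toMonoidHom.map_zpow x m
      simp only [MulEquiv.toMonoidHom_eq_coe, MonoidHom.coe_coe, MulAut.conj_apply, inv_inv] at h2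
      rw [← h2, hm']
      group
    rw [this, hk']
    exact Subgroup.zpow_mem _ (Subgroup.zpow_mem _ (Subgroup.mem_zpowers x) k) m

theorem sc_conj_mem_of_normalizer {x : G} {g : G}
    (hg : g ∈ Subgroup.normalizer (Subgroup.zpowers x : Set G)) :
    g * x * g⁻¹ ∈ Subgroup.zpowers x :=
  (Subgroup.mem_normalizer_iff.mp hg x).mp (Subgroup.mem_zpowers x)

theorem sc_normalizer_comm {p : ℕ} [hp : Fact p.Prime] {x : G} (hx : orderOf x = p)
    (hC : Subgroup.centralizer ({x} : Set G) = Subgroup.zpowers x) {n m : G}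
    (hn : n ∈ Subgroup.normalizer (Subgroup.zpowers x : Set G))
    (hm : m ∈ Subgroup.normalizer (Subgroup.zpowers x : Set G)) :
    ⁅n, m⁆ ∈ Subgroup.zpowers x := by
  have key : ∀ a b : G, a ∈ Subgroup.normalizer (Subgroup.zpowers x : Set G) →
      b ∈ Subgroup.normalizer (Subgroup.zpowers x : Set G) →
      a⁻¹ * b⁻¹ * a * b ∈ Subgroup.zpowers x := by
    intro a b ha hb
    obtain ⟨i, hi⟩ := sc_conj_mem_of_normalizer ha
    obtain ⟨j, hj⟩ := sc_conj_mem_of_normalizer hb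
    have hi' : a * x * a⁻¹ = x ^ i := hi.symm
    have hj' : b * x * b⁻¹ = x ^ j := hj.symm
    have hconj : ∀ (c : G) (k : ℤ), c * x ^ k * c⁻¹ = (c * x * c⁻¹) ^ k := by
      intro c k
      have := (MulAut.conj c).toMonoidHom.map_zpow x k
      simpa using this
    have h1 : (a * b) * x * (a * b)⁻¹ = x ^ (j * i) := by
      have : (a * b) * x * (a * b)⁻¹ = a * (b * x * b⁻¹) * a⁻¹ := by group
      rw [this, hj', hconj, hi', ← zpow_mul, mul_comm]
    have h2 : (b * a) * x * (b * a)⁻¹ = x ^ (j * i) := by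
      have : (b * a) * x * (b * a)⁻¹ = b * (a * x * a⁻¹) * b⁻¹ := by group
      rw [this, hi', hconj, hj', ← zpow_mul]
    apply sc_comm_mem hC
    have h3 : (a * b) * x * (a * b)⁻¹ = (b * a) * x * (b * a)⁻¹ := by rw [h1, h2]
    have h4 : (b * a)⁻¹ * ((a * b) * x * (a * b)⁻¹) * (b * a) = x := by
      rw [h3]
      group
    calc a⁻¹ * b⁻¹ * a * b * x = ((b * a)⁻¹ * ((a * b) * x * (a * b)⁻¹) * (b * a))
          * (a⁻¹ * b⁻¹ * a * b) := by group
      _ = x * (a⁻¹ * b⁻¹ * a * b) := by rw [h4]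
  have := key n⁻¹ m⁻¹ (Subgroup.inv_mem _ hn) (Subgroup.inv_mem _ hm)
  simpa [commutatorElement_def, inv_inv] using this

theorem sc_surj {x : G} (S : Subgroup G) [S.Normal] [Finite S]
    (hS : ∀ s ∈ S, s * x = x * s → s = 1) {s₀ : G} (hs₀ : s₀ ∈ S) :
    ∃ s ∈ S, s * x * s⁻¹ * x⁻¹ = s₀ := by
  have hmem : ∀ s : S, (s : G) * x * (s : G)⁻¹ * x⁻¹ ∈ S := by
    intro s
    have h1 : x * (s : G)⁻¹ * x⁻¹ ∈ S :=
      Subgroup.Normal.conj_mem inferInstance _ (S.inv_mem s.2) x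
    have : (s : G) * x * (s : G)⁻¹ * x⁻¹ = (s : G) * (x * (s : G)⁻¹ * x⁻¹) := by group
    rw [this]
    exact S.mul_mem s.2 h1
  let φ : S → S := fun s => ⟨(s : G) * x * (s : G)⁻¹ * x⁻¹, hmem s⟩
  have hinj : Function.Injective φ := by
    intro s s' h
    have h1 : (s : G) * x * (s : G)⁻¹ * x⁻¹ = (s' : G) * x * (s' : G)⁻¹ * x⁻¹ :=
      congrArg Subtype.val h
    have h2 : (s : G) * x * (s : G)⁻¹ = (s' : G) * x * (s' : G)⁻¹ := mul_right_cancel h1
    have h3 : ((s' : G)⁻¹ * (s : G)) * x = x * ((s' : G)⁻¹ * (s : G)) := by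
      calc ((s' : G)⁻¹ * (s : G)) * x = (s' : G)⁻¹ * ((s : G) * x * (s : G)⁻¹) * (s : G) := by
            group
        _ = (s' : G)⁻¹ * ((s' : G) * x * (s' : G)⁻¹) * (s : G) := by rw [h2]
        _ = x * ((s' : G)⁻¹ * (s : G)) := by group
    have h4 := hS _ (S.mul_mem (S.inv_mem s'.2) s.2) h3
    apply Subtype.ext
    have : (s : G) = (s' : G) * ((s' : G)⁻¹ * (s : G)) := by group
    rw [this, h4, mul_one]
  obtain ⟨s, hs⟩ := Finite.surjective_of_injective hinj ⟨s₀, hs₀⟩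
  exact ⟨s, s.2, congrArg Subtype.val hs⟩

theorem sc_le_commutator {x : G} (S : Subgroup G) [S.Normal] [Finite S]
    (hS : ∀ s ∈ S, s * x = x * s → s = 1) : S ≤ commutator G := by
  intro s hs
  obtain ⟨u, -, hu2⟩ := sc_surj S hS hs
  rw [← hu2]
  have : u * x * u⁻¹ * x⁻¹ = ⁅u, x⁆ := by rw [commutatorElement_def]
  rw [this]
  exact Subgroup.commutator_mem_commutator (Subgroup.mem_top u) (Subgroup.mem_top x)

theorem sc_mem_sup {x : G} (S : Subgroup G) [S.Normal] [Finite S]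
    (hC : Subgroup.centralizer ({x} : Set G) = Subgroup.zpowers x)
    (hS : ∀ s ∈ S, s * x = x * s → s = 1) {g : G} (hg : g * x * g⁻¹ * x⁻¹ ∈ S) :
    ∃ s ∈ S, s⁻¹ * g ∈ Subgroup.zpowers x := by
  obtain ⟨s, hs, hs2⟩ := sc_surj S hS hg
  refine ⟨s, hs, sc_comm_mem hC ?_⟩
  have h2 : s * x * s⁻¹ = g * x * g⁻¹ := mul_right_cancel hs2
  calc s⁻¹ * g * x = s⁻¹ * (g * x * g⁻¹) * g := by group
    _ = s⁻¹ * (s * x * s⁻¹) * g := by rw [h2]
    _ = x * (s⁻¹ * g) := by group

theorem sc_ne_one {p : ℕ} [hp : Fact p.Prime] {x : G} (hx : orderOf x = p) : x ≠ 1 := by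
  intro h
  rw [h, orderOf_one] at hx
  exact hp.out.ne_one hx.symm

theorem sc_sylow [Finite G] {p : ℕ} [hp : Fact p.Prime] {x : G} (hx : orderOf x = p)
    (hC : Subgroup.centralizer ({x} : Set G) = Subgroup.zpowers x) :
    ∃ Q : Sylow p G, (Q : Subgroup G) = Subgroup.zpowers x := by
  have hPp : IsPGroup p (Subgroup.zpowers x) :=
    IsPGroup.of_card (n := 1) (by rw [Nat.card_zpowers, hx, pow_one])
  obtain ⟨Q, hQ⟩ := hPp.exists_le_sylow
  refine ⟨Q, le_antisymm ?_ hQ⟩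
  have hx1 : x ≠ 1 := sc_ne_one hx
  have hnt : Nontrivial (Q : Subgroup G) :=
    ⟨⟨⟨x, hQ (Subgroup.mem_zpowers x)⟩, 1, fun h => hx1 (congrArg Subtype.val h)⟩⟩
  have hcn : Nontrivial (Subgroup.center (Q : Subgroup G)) :=
    IsPGroup.center_nontrivial Q.isPGroup'
  obtain ⟨z, hz⟩ := exists_ne (1 : Subgroup.center (Q : Subgroup G))
  have hzc := z.2
  rw [Subgroup.mem_center_iff] at hzc
  have hzx : ((z : (Q : Subgroup G)) : G) * x = x * ((z : (Q : Subgroup G)) : G) := by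
    have h2 := hzc ⟨x, hQ (Subgroup.mem_zpowers x)⟩
    exact (congrArg Subtype.val h2).symm
  have hzP := sc_comm_mem hC hzx
  have hz1 : ((z : (Q : Subgroup G)) : G) ≠ 1 := by
    intro h
    apply hz
    apply Subtype.ext
    apply Subtype.ext
    exact h
  intro q hq
  apply sc_mem_of_comm_gen hx hC hzP hz1
  have h2 := hzc ⟨q, hq⟩
  exact congrArg Subtype.val h2

theorem sc_conj_mem [Finite G] {p : ℕ} [hp : Fact p.Prime] {x : G} (hx : orderOf x = p)
    (hC : Subgroup.centralizer ({x} : Set G) = Subgroup.zpowers x) {y : G}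
    (hy : orderOf y = p) : ∃ g : G, g * y * g⁻¹ ∈ Subgroup.zpowers x := by
  obtain ⟨Q, hQ⟩ := sc_sylow hx hC
  have hPp : IsPGroup p (Subgroup.zpowers y) :=
    IsPGroup.of_card (n := 1) (by rw [Nat.card_zpowers, hy, pow_one])
  obtain ⟨Q', hQ'⟩ := hPp.exists_le_sylow
  obtain ⟨g, hg⟩ := MulAction.exists_smul_eq G Q' Q
  refine ⟨g, ?_⟩
  rw [← hQ, ← hg, Sylow.smul_def, Sylow.pointwise_smul_def]
  have := Subgroup.smul_mem_pointwise_smul y (MulAut.conj g) (Q' : Subgroup G)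
    (hQ' (Subgroup.mem_zpowers y))
  simpa [MulAut.smul_def] using this

theorem sc_mem_of_dvd [Finite G] {p : ℕ} [hp : Fact p.Prime] {x : G} (hx : orderOf x = p)
    (hC : Subgroup.centralizer ({x} : Set G) = Subgroup.zpowers x) (S : Subgroup G) [S.Normal]
    (hS : p ∣ Nat.card S) : x ∈ S := by
  obtain ⟨y, hy⟩ := exists_prime_orderOf_dvd_card' p hS
  have hy' : orderOf (y : G) = p := by rw [Subgroup.orderOf_coe, hy]
  obtain ⟨g, hg⟩ := sc_conj_mem hx hC hy'
  have hgS : g * (y : G) * g⁻¹ ∈ S := Subgroup.Normal.conj_mem inferInstance _ y.2 g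
  have hne : g * (y : G) * g⁻¹ ≠ 1 := by
    intro h
    have hy1 : (y : G) = 1 := by
      have := congrArg (fun z => g⁻¹ * z * g) h
      simpa [mul_assoc] using this
    exact sc_ne_one hy' hy1
  have hz := sc_zpowers_eq hx hg hne
  have : x ∈ Subgroup.zpowers (g * (y : G) * g⁻¹) := by
    rw [hz]
    exact Subgroup.mem_zpowers x
  exact (Subgroup.zpowers_le.mpr hgS) this

theorem sc_frattini [Finite G] {p : ℕ} [hp : Fact p.Prime] {x : G} (hx : orderOf x = p)
    (hC : Subgroup.centralizer ({x} : Set G) = Subgroup.zpowers x) (K : Subgroup G) [K.Normal]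
    (hK : x ∈ K) : Subgroup.normalizer (Subgroup.zpowers x : Set G) ⊔ K = ⊤ := by
  obtain ⟨Q, hQ⟩ := sc_sylow hx hC
  have hQK : (Q : Subgroup G) ≤ K := by
    rw [hQ, Subgroup.zpowers_le]
    exact hK
  have h := Sylow.normalizer_sup_eq_top (Q.subtype hQK)
  rw [Sylow.coe_subtype, Subgroup.subgroupOf_map_subtype, inf_eq_left.mpr hQK, hQ] at h
  exact h

theorem sc_card_subgroups [Finite G] {p : ℕ} [hp : Fact p.Prime] {x : G} (hx : orderOf x = p)
    (hC : Subgroup.centralizer ({x} : Set G) = Subgroup.zpowers x) :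
    Nat.card {H : Subgroup G // Nat.card H = p}
      = (Subgroup.normalizer (Subgroup.zpowers x : Set G)).index := by
  obtain ⟨Q, hQ⟩ := sc_sylow hx hC
  have hcard : ∀ Q' : Sylow p G, Nat.card (Q' : Subgroup G) = p := by
    intro Q'
    rw [Sylow.card_eq_multiplicity, ← Sylow.card_eq_multiplicity Q, hQ, Nat.card_zpowers, hx]
  have hidx : Nat.card (Sylow p G)
      = (Subgroup.normalizer ((Q : Subgroup G) : Set G)).index :=
    Sylow.card_eq_index_normalizer Q
  rw [← hQ, ← hidx]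
  apply Nat.card_congr
  symm
  refine Equiv.ofBijective (fun Q' : Sylow p G => ⟨(Q' : Subgroup G), hcard Q'⟩) ⟨?_, ?_⟩
  · intro Q1 Q2 h
    exact Sylow.ext (congrArg Subtype.val h)
  · rintro ⟨H, hH⟩
    have hHp : IsPGroup p H := IsPGroup.of_card (n := 1) (by rw [hH, pow_one])
    obtain ⟨Q', hQ'⟩ := hHp.exists_le_sylow
    refine ⟨Q', Subtype.ext ?_⟩
    exact (Subgroup.eq_of_le_of_card_ge hQ' (by rw [hcard Q', hH])).symm

theorem sc_coprime_comm [Finite G] {p : ℕ} [hp : Fact p.Prime] {x : G} (hx : orderOf x = p)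
    (hC : Subgroup.centralizer ({x} : Set G) = Subgroup.zpowers x) (S : Subgroup G)
    (hS : ¬ p ∣ Nat.card S) : ∀ s ∈ S, s * x = x * s → s = 1 := by
  intro s hs hsx
  by_contra hne
  have hsP := sc_comm_mem hC hsx
  have hz := sc_zpowers_eq hx hsP hne
  apply hS
  have h1 : Nat.card (Subgroup.zpowers s) = p := by
    rw [hz, Nat.card_zpowers, hx]
  rw [← h1]
  exact Subgroup.card_dvd_of_le (Subgroup.zpowers_le.mpr hs)

theorem sc_inf_normalizer [Finite G] {p : ℕ} [hp : Fact p.Prime] {x : G} (hx : orderOf x = p)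
    (hC : Subgroup.centralizer ({x} : Set G) = Subgroup.zpowers x) (S : Subgroup G) [S.Normal]
    (hS : ¬ p ∣ Nat.card S) :
    ∀ s ∈ S, s ∈ Subgroup.normalizer (Subgroup.zpowers x : Set G) → s = 1 := by
  intro s hs hsN
  apply sc_coprime_comm hx hC S hS s hs
  have h1 : s * x * s⁻¹ ∈ Subgroup.zpowers x := sc_conj_mem_of_normalizer hsN
  have h2 : s * x * s⁻¹ * x⁻¹ ∈ Subgroup.zpowers x :=
    Subgroup.mul_mem _ h1 (Subgroup.inv_mem _ (Subgroup.mem_zpowers x))
  have h3 : s * x * s⁻¹ * x⁻¹ ∈ S := by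
    have h4 : x * s⁻¹ * x⁻¹ ∈ S := Subgroup.Normal.conj_mem inferInstance _ (S.inv_mem hs) x
    have : s * x * s⁻¹ * x⁻¹ = s * (x * s⁻¹ * x⁻¹) := by group
    rw [this]
    exact S.mul_mem hs h4
  have h5 : s * x * s⁻¹ * x⁻¹ = 1 := by
    by_contra hne
    have hz := sc_zpowers_eq hx h2 hne
    apply hS
    have h1 : Nat.card (Subgroup.zpowers (s * x * s⁻¹ * x⁻¹)) = p := by
      rw [hz, Nat.card_zpowers, hx]
    rw [← h1]
    exact Subgroup.card_dvd_of_le (Subgroup.zpowers_le.mpr h3)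
  calc s * x = (s * x * s⁻¹ * x⁻¹) * (x * s) := by group
    _ = x * s := by rw [h5, one_mul]

end SelfCent

end Cfsg.Agent.Lib.helper22
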