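import Cfsg.Agent.Lib.helper22.SelfCent
import Cfsg.Agent.Lib.helper24.CharPerm

set_option autoImplicit false

namespace Cfsg.Agent.Lib.helper22

open Subgroup
open Cfsg.Agent.Lib.helper24

universe u

section Count

variable {G : Type u} [Group G]

theorem sc_orderOf_conj (c g : G) : orderOf (c * g * c⁻¹) = orderOf g :=
  orderOf_injective (MulAut.conj c).toMonoidHom (MulAut.conj c).injective g

theorem sc_card_centralizer [Finite G] {p : ℕ} [hp : Fact p.Prime] {x : G} (hx : orderOf x = p)
    (hC : Subgroup.centralizer ({x} : Set G) = Subgroup.zpowers x) (g : G) (hg : orderOf g = p) :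
    Nat.card (Subgroup.centralizer ({g} : Set G)) = p := by
  obtain ⟨c, hc⟩ := sc_conj_mem hx hC hg
  have hconj : IsConj g (c * g * c⁻¹) := isConj_iff.mpr ⟨c, rfl⟩
  rw [card_centralizer_eq_of_isConj hconj]
  have hne : c * g * c⁻¹ ≠ 1 := sc_ne_one (p := p) (by rw [sc_orderOf_conj, hg])
  have : Subgroup.centralizer ({c * g * c⁻¹} : Set G) = Subgroup.zpowers x := by
    apply le_antisymm
    · intro u hu
      rw [Subgroup.mem_centralizer_iff] at hu
      exact sc_mem_of_comm_gen hx hC hc hne (hu _ rfl).symm
    · intro u hu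
      rw [Subgroup.mem_centralizer_iff]
      intro h hh
      rw [Set.mem_singleton_iff] at hh
      obtain ⟨i, hi⟩ := hu
      obtain ⟨j, hj⟩ := hc
      have hi' : x ^ i = u := hi
      have hj' : x ^ j = c * g * c⁻¹ := hj
      rw [hh, ← hj', ← hi', ← zpow_add, ← zpow_add, add_comm]
  rw [this, Nat.card_zpowers, hx]

theorem sc_count_A [Finite G] {p : ℕ} [hp : Fact p.Prime] {x : G} (hx : orderOf x = p)
    (hC : Subgroup.centralizer ({x} : Set G) = Subgroup.zpowers x) :
    p * Nat.card {g : G // orderOf g = p}
      = Nat.card G * Nat.card {C : ConjClasses G // ∃ g ∈ C.carrier, orderOf g = p} := by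
  classical
  have hfin := Fintype.ofFinite G
  have hinv : ∀ g h : G, IsConj g h → (orderOf g = p ↔ orderOf h = p) := by
    intro g h hgh
    obtain ⟨c, rfl⟩ := isConj_iff.mp hgh
    rw [sc_orderOf_conj]
  have h := sum_centralizer_eq (G := G) (fun g => orderOf g = p) hinv
  have h2 : ∑ g : G, (if orderOf g = p then (Nat.card (Subgroup.centralizer ({g} : Set G)) : ℂ)
      else 0) = (p : ℂ) * (Nat.card {g : G // orderOf g = p} : ℂ) := by
    rw [Nat.card_eq_fintype_card, Fintype.card_subtype, Finset.card_filter]
    push_cast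
    rw [Finset.mul_sum]
    apply Finset.sum_congr rfl
    intro g _
    split_ifs with hg
    · rw [sc_card_centralizer hx hC g hg]
      ring
    · ring
  have h3 : Nat.card {C : ConjClasses G // ∀ g : G, ConjClasses.mk g = C → orderOf g = p}
      = Nat.card {C : ConjClasses G // ∃ g ∈ C.carrier, orderOf g = p} := by
    apply Nat.card_congr
    apply Equiv.subtypeEquivRight
    intro C
    obtain ⟨g₀, rfl⟩ := ConjClasses.mk_surjective C
    constructor
    · intro h
      exact ⟨g₀, ConjClasses.mem_carrier_mk, h g₀ rfl⟩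
    · rintro ⟨g', hg', ho⟩ g hg
      rw [ConjClasses.mem_carrier_iff_mk_eq] at hg'
      have : IsConj g g' := ConjClasses.mk_eq_mk_iff_isConj.mp (hg.trans hg'.symm)
      exact (hinv g g' this).mpr ho
  rw [h2, h3] at h
  exact_mod_cast h

theorem sc_count_B [Finite G] {p : ℕ} [hp : Fact p.Prime] {x : G} (hx : orderOf x = p)
    (hC : Subgroup.centralizer ({x} : Set G) = Subgroup.zpowers x) :
    Nat.card {g : G // orderOf g = p}
      = (Subgroup.normalizer (Subgroup.zpowers x : Set G)).index * (p - 1) := by
  classical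
  rw [← sc_card_subgroups hx hC]
  let f : {g : G // orderOf g = p} → {H : Subgroup G // Nat.card H = p} :=
    fun g => ⟨Subgroup.zpowers g.1, by rw [Nat.card_zpowers]; exact g.2⟩
  have hft := Fintype.ofFinite {H : Subgroup G // Nat.card H = p}
  rw [← Nat.card_congr (Equiv.sigmaFiberEquiv f), Nat.card_sigma]
  have hfib : ∀ H : {H : Subgroup G // Nat.card H = p}, Nat.card {g // f g = H} = p - 1 := by
    rintro ⟨H, hH⟩
    have hHfin : Fintype H := Fintype.ofFinite H
    have hmem : ∀ g : {g : {g : G // orderOf g = p} // f g = ⟨H, hH⟩}, g.1.1 ∈ H := by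
      intro g
      have h1 : Subgroup.zpowers g.1.1 = H := congrArg Subtype.val g.2
      have h2 : g.1.1 ∈ Subgroup.zpowers g.1.1 := Subgroup.mem_zpowers _
      exact (le_of_eq h1) h2
    have hord : ∀ h : {h : H // ¬ h = 1}, orderOf (h.1 : G) = p := by
      intro h
      have hdvd : orderOf (h.1 : G) ∣ p := by
        rw [← hH]
        exact Subgroup.orderOf_dvd_natCard H h.1.2
      rcases (Nat.dvd_prime hp.out).mp hdvd with h1 | h1
      · exfalso
        apply h.2
        apply Subtype.ext
        exact orderOf_eq_one_iff.mp h1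
      · exact h1
    let e : {g : {g : G // orderOf g = p} // f g = ⟨H, hH⟩} ≃ {h : H // ¬ h = 1} :=
      { toFun := fun g => ⟨⟨g.1.1, hmem g⟩, fun h1 =>
          sc_ne_one (p := p) g.1.2 (congrArg Subtype.val h1)⟩
        invFun := fun h => ⟨⟨(h.1 : G), hord h⟩, by
          apply Subtype.ext
          show Subgroup.zpowers (h.1 : G) = H
          apply Subgroup.eq_of_le_of_card_ge
          · rw [Subgroup.zpowers_le]
            exact h.1.2
          · rw [Nat.card_zpowers, hord h, hH]⟩
        left_inv := fun g => rfl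
        right_inv := fun h => rfl }
    rw [Nat.card_congr e, Nat.card_eq_fintype_card, Fintype.card_subtype_compl,
      Fintype.card_subtype_eq, ← Nat.card_eq_fintype_card, hH]
  simp only [hfib, Finset.sum_const, Finset.card_univ, smul_eq_mul, Nat.card_eq_fintype_card]

theorem sc_count [Finite G] {p : ℕ} [hp : Fact p.Prime] {x : G} (hx : orderOf x = p)
    (hC : Subgroup.centralizer ({x} : Set G) = Subgroup.zpowers x) :
    (Subgroup.zpowers x).relIndex (Subgroup.normalizer (Subgroup.zpowers x : Set G))
      * Nat.card {C : ConjClasses G // ∃ g ∈ C.carrier, orderOf g = p} = p - 1 := by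
  have hA := sc_count_A hx hC
  have hB := sc_count_B hx hC
  have h1 : (Subgroup.zpowers x).relIndex (Subgroup.normalizer (Subgroup.zpowers x : Set G))
      * (Subgroup.normalizer (Subgroup.zpowers x : Set G)).index = (Subgroup.zpowers x).index :=
    Subgroup.relIndex_mul_index Subgroup.le_normalizer
  have h2 : (Subgroup.zpowers x).index * p = Nat.card G := by
    have := Subgroup.index_mul_card (Subgroup.zpowers x)
    rw [Nat.card_zpowers, hx] at this
    exact this
  have hidx : 0 < (Subgroup.normalizer (Subgroup.zpowers x : Set G)).index :=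
    Nat.pos_of_ne_zero Subgroup.index_ne_zero_of_finite
  have hp0 : 0 < p := hp.out.pos
  rw [hB, ← h2, ← h1] at hA
  have h3 : (p * (Subgroup.normalizer (Subgroup.zpowers x : Set G)).index) * (p - 1)
      = (p * (Subgroup.normalizer (Subgroup.zpowers x : Set G)).index)
        * ((Subgroup.zpowers x).relIndex (Subgroup.normalizer (Subgroup.zpowers x : Set G))
          * Nat.card {C : ConjClasses G // ∃ g ∈ C.carrier, orderOf g = p}) := by
    rw [← mul_assoc] at hA
    rw [hA]
    ring
  exact (Nat.eq_of_mul_eq_mul_left (Nat.mul_pos hp0 hidx) h3).symm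

end Count

end Cfsg.Agent.Lib.helper22
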