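import Cfsg.Agent.Lib.helper22.SelfCentCount

set_option autoImplicit false

namespace Cfsg.Agent.Lib.helper22

open Subgroup
open scoped commutatorElement

universe u

section Struct

variable {G : Type u} [Group G]

theorem sc_x_mem_commutator {p : ℕ} [hp : Fact p.Prime] {x : G} (hx : orderOf x = p)
    (hC : Subgroup.centralizer ({x} : Set G) = Subgroup.zpowers x)
    (hN : ¬ Subgroup.normalizer (Subgroup.zpowers x : Set G) ≤ Subgroup.zpowers x) :
    x ∈ commutator G := by
  obtain ⟨n, hn, hnP⟩ := SetLike.not_le_iff_exists.mp hN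
  have h1 : n * x * n⁻¹ ∈ Subgroup.zpowers x := sc_conj_mem_of_normalizer hn
  have h2 : ⁅n, x⁆ ∈ Subgroup.zpowers x := by
    rw [commutatorElement_def]
    exact Subgroup.mul_mem _ h1 (Subgroup.inv_mem _ (Subgroup.mem_zpowers x))
  have h3 : ⁅n, x⁆ ≠ 1 := by
    intro h
    apply hnP
    apply sc_comm_mem hC
    rw [commutatorElement_def] at h
    calc n * x = (n * x * n⁻¹ * x⁻¹) * (x * n) := by group
      _ = x * n := by rw [h, one_mul]
  have hz := sc_zpowers_eq hx h2 h3
  have hxz : x ∈ Subgroup.zpowers ⁅n, x⁆ := by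
    rw [hz]
    exact Subgroup.mem_zpowers x
  have hle : Subgroup.zpowers ⁅n, x⁆ ≤ commutator G := by
    rw [Subgroup.zpowers_le]
    exact Subgroup.commutator_mem_commutator (Subgroup.mem_top n) (Subgroup.mem_top x)
  exact hle hxz

theorem sc_index_dvd [Finite G] {p : ℕ} [hp : Fact p.Prime] {x : G} (hx : orderOf x = p)
    (hC : Subgroup.centralizer ({x} : Set G) = Subgroup.zpowers x) (K : Subgroup G) [K.Normal]
    (hK : x ∈ K) :
    K.index ∣ (Subgroup.zpowers x).relIndex (Subgroup.normalizer (Subgroup.zpowers x : Set G)) := by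
  have hfr := sc_frattini hx hC K hK
  have h1 : K.relIndex (Subgroup.normalizer (Subgroup.zpowers x : Set G) ⊔ K)
      = K.relIndex (Subgroup.normalizer (Subgroup.zpowers x : Set G)) :=
    Subgroup.relIndex_sup_right _ K
  rw [hfr, Subgroup.relIndex_top_right] at h1
  rw [h1, ← Subgroup.inf_relIndex_right]
  apply Subgroup.relIndex_dvd_of_le_left
  exact le_inf (Subgroup.zpowers_le.mpr hK) Subgroup.le_normalizer

theorem sc_transfer [Finite G] {p : ℕ} [hp : Fact p.Prime] {x : G} (hx : orderOf x = p)
    (hC : Subgroup.centralizer ({x} : Set G) = Subgroup.zpowers x)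
    (hN : Subgroup.normalizer (Subgroup.zpowers x : Set G) ≤ Subgroup.zpowers x) :
    (commutator G).index = p ∧ ¬ p ∣ Nat.card (commutator G) := by
  obtain ⟨Q, hQ⟩ := sc_sylow hx hC
  have hcomm : ∀ u ∈ Subgroup.zpowers x, ∀ v ∈ Subgroup.zpowers x, u * v = v * u := by
    rintro u ⟨i, rfl⟩ v ⟨j, rfl⟩
    show x ^ i * x ^ j = x ^ j * x ^ i
    rw [← zpow_add, ← zpow_add, add_comm]
  have hQn : Subgroup.normalizer ((Q : Subgroup G) : Set G)
      ≤ Subgroup.centralizer ((Q : Subgroup G) : Set G) := by
    rw [hQ]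
    intro u hu
    rw [Subgroup.mem_centralizer_iff]
    intro h hh
    exact hcomm h hh u (hN hu)
  have hcompl := MonoidHom.ker_transferSylow_isComplement' Q hQn
  have hKn : (MonoidHom.transferSylow Q hQn).ker.Normal := MonoidHom.normal_ker _
  have hdisj : ∀ s ∈ (MonoidHom.transferSylow Q hQn).ker, s * x = x * s → s = 1 := by
    intro s hs hsx
    have hsP : s ∈ (Q : Subgroup G) := by
      rw [hQ]
      exact sc_comm_mem hC hsx
    have := hcompl.disjoint.le_bot (Subgroup.mem_inf.mpr ⟨hs, hsP⟩)
    exact (Subgroup.mem_bot).mp this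
  have hle1 : (MonoidHom.transferSylow Q hQn).ker ≤ commutator G :=
    sc_le_commutator _ hdisj
  have hle2 : commutator G ≤ (MonoidHom.transferSylow Q hQn).ker := by
    rw [commutator_def, Subgroup.commutator_le]
    intro a _ b _
    rw [MonoidHom.mem_ker, map_commutatorElement]
    apply Subtype.ext
    have h1 : ((MonoidHom.transferSylow Q hQn a : (Q : Subgroup G)) : G) ∈ Subgroup.zpowers x := by
      rw [← hQ]
      exact (MonoidHom.transferSylow Q hQn a).2
    have h2 : ((MonoidHom.transferSylow Q hQn b : (Q : Subgroup G)) : G) ∈ Subgroup.zpowers x := by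
      rw [← hQ]
      exact (MonoidHom.transferSylow Q hQn b).2
    have h3 := hcomm _ h1 _ h2
    rw [commutatorElement_def]
    simp only [Subgroup.coe_mul, Subgroup.coe_inv, Subgroup.coe_one]
    rw [h3]
    group
  have heq : commutator G = (MonoidHom.transferSylow Q hQn).ker := le_antisymm hle2 hle1
  constructor
  · rw [heq, hcompl.symm.index_eq_card, hQ, Nat.card_zpowers, hx]
  · intro hdvd
    have hxK : x ∈ commutator G := sc_mem_of_dvd hx hC (commutator G) hdvd
    rw [heq] at hxK
    exact sc_ne_one hx (hdisj x hxK rfl)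

end Struct

end Cfsg.Agent.Lib.helper22
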