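import Cfsg.Agent.Lib.helper22.SelfCentStruct

set_option autoImplicit false

namespace Cfsg.Agent.Lib.helper22

open Subgroup
open scoped commutatorElement

universe u

section Sub

variable {G : Type u} [Group G]

theorem sc_subgroup {p : ℕ} {x : G} (hx : orderOf x = p)
    (hC : Subgroup.centralizer ({x} : Set G) = Subgroup.zpowers x) (K : Subgroup G)
    (hxK : x ∈ K) :
    orderOf (⟨x, hxK⟩ : K) = p ∧
      Subgroup.centralizer ({(⟨x, hxK⟩ : K)} : Set K) = Subgroup.zpowers (⟨x, hxK⟩ : K) := by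
  constructor
  · rw [← Subgroup.orderOf_coe]
    exact hx
  · ext d
    rw [Subgroup.mem_centralizer_iff]
    constructor
    · intro h
      have h1 := h _ (Set.mem_singleton _)
      have h2 : (d : G) * x = x * (d : G) := (congrArg Subtype.val h1).symm
      obtain ⟨k, hk⟩ := sc_comm_mem hC h2
      refine ⟨k, Subtype.ext ?_⟩
      simpa using hk
    · rintro ⟨k, rfl⟩ h hh
      rw [Set.mem_singleton_iff] at hh
      rw [hh]
      exact ((Commute.refl _).zpow_right k).eq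

theorem isSimple_quot (S D : Subgroup G) (hSD : S ≤ D) [h : (S.subgroupOf D).Normal]
    (hne : ¬ D ≤ S)
    (hmax : ∀ M : Subgroup G, S ≤ M → M ≤ D → (∀ d ∈ D, ∀ m ∈ M, d * m * d⁻¹ ∈ M) →
      M = S ∨ M = D) :
    IsSimpleGroup (↥D ⧸ S.subgroupOf D) := by
  have hnt : Nontrivial (↥D ⧸ S.subgroupOf D) := by
    rw [QuotientGroup.nontrivial_iff]
    intro h1
    rw [Subgroup.subgroupOf_eq_top] at h1
    exact hne h1
  refine ⟨fun L hL => ?_⟩
  let M : Subgroup G := (L.comap (QuotientGroup.mk' (S.subgroupOf D))).map D.subtype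
  have h1 : S ≤ M := by
    intro s hs
    refine ⟨⟨s, hSD hs⟩, ?_, rfl⟩
    show QuotientGroup.mk' (S.subgroupOf D) ⟨s, hSD hs⟩ ∈ L
    have : (QuotientGroup.mk' (S.subgroupOf D)) ⟨s, hSD hs⟩ = 1 :=
      (QuotientGroup.eq_one_iff _).mpr (by rw [Subgroup.mem_subgroupOf]; exact hs)
    rw [this]
    exact L.one_mem
  have h2 : M ≤ D := by
    rintro _ ⟨d, -, rfl⟩
    exact d.2
  have h3 : ∀ d ∈ D, ∀ m ∈ M, d * m * d⁻¹ ∈ M := by
    rintro d hd _ ⟨m, hm, rfl⟩
    refine ⟨⟨d, hd⟩ * m * ⟨d, hd⟩⁻¹, ?_, rfl⟩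
    show QuotientGroup.mk' (S.subgroupOf D) (⟨d, hd⟩ * m * ⟨d, hd⟩⁻¹) ∈ L
    rw [map_mul, map_mul, map_inv]
    exact hL.conj_mem _ hm _
  rcases hmax M h1 h2 h3 with hM | hM
  · left
    rw [eq_bot_iff]
    intro q hq
    obtain ⟨d, rfl⟩ := QuotientGroup.mk'_surjective (S.subgroupOf D) q
    have hdM : (d : G) ∈ M := ⟨d, hq, rfl⟩
    rw [hM] at hdM
    rw [Subgroup.mem_bot]
    exact (QuotientGroup.eq_one_iff d).mpr (Subgroup.mem_subgroupOf.mpr hdM)
  · right
    rw [eq_top_iff]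
    intro q _
    obtain ⟨d, rfl⟩ := QuotientGroup.mk'_surjective (S.subgroupOf D) q
    have hdM : (d : G) ∈ M := by
      rw [hM]
      exact d.2
    obtain ⟨d', hd', hdd⟩ := hdM
    have : d' = d := Subtype.ext hdd
    rw [← this]
    exact hd'

theorem sc_mem_of_dvd_rel [Finite G] {p : ℕ} [hp : Fact p.Prime] {x : G} (hx : orderOf x = p)
    (hC : Subgroup.centralizer ({x} : Set G) = Subgroup.zpowers x) (D M : Subgroup G)
    (hxD : x ∈ D) (hMD : M ≤ D) (hnorm : ∀ d ∈ D, ∀ m ∈ M, d * m * d⁻¹ ∈ M)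
    (hdvd : p ∣ Nat.card M) : x ∈ M := by
  obtain ⟨hx', hC'⟩ := sc_subgroup hx hC D hxD
  have hN : (M.subgroupOf D).Normal := by
    constructor
    intro n hn g
    rw [Subgroup.mem_subgroupOf] at hn ⊢
    exact hnorm g g.2 n hn
  have hcard : Nat.card (M.subgroupOf D) = Nat.card M :=
    Nat.card_congr (Subgroup.subgroupOfEquivOfLe hMD).toEquiv
  have := sc_mem_of_dvd hx' hC' (M.subgroupOf D) (by rw [hcard]; exact hdvd)
  exact Subgroup.mem_subgroupOf.mp this

end Sub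

end Cfsg.Agent.Lib.helper22
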