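import Mathlib
import Cfsg.Agent.Lib.helper22.SubsecNorm

set_option autoImplicit false

namespace Cfsg.Agent.Lib.helper22

open Cfsg Cfsg.Agent.Lib.helper24 Cfsg.Agent.Lib.helper23 Cfsg.Agent.Lib.helper5
open scoped ComplexConjugate

universe u

section general2

variable {K : Type u} [Group K] [Fintype K] [Fintype (IrrCharacter K)]

theorem blockPart_irr_of_notMem (B : Set (IrrCharacter K)) {χ : IrrCharacter K} (hχ : χ ∉ B)
    (y : K) : blockPart B χ.1 y = 0 := by
  classical
  rw [blockPart_eq_ind]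
  apply Finset.sum_eq_zero
  intro ψ _
  by_cases hψ : ψ ∈ B
  · have hne : χ ≠ ψ := fun h => hχ (h ▸ hψ)
    rw [irr_orthonormal, if_neg hne, zero_mul, mul_zero]
  · rw [Set.indicator_of_notMem hψ, zero_mul]

end general2

section subsection2

variable {G : Type u} [Group G] [Fintype G] [Fintype (IrrCharacter G)]
variable {M : Ideal AlgInt} {p : ℕ} [Fact p.Prime]
variable (H : Subgroup G) [Fintype H] [Fintype (IrrCharacter H)]

theorem subsec_gram2 (hM : IsPModular p M) (u : G) (hu : ∃ k : ℕ, orderOf u = p ^ k)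
    (hH1 : ∀ h : H, (h : G) * u = u * (h : G))
    (hH2 : Subgroup.centralizer ({u} : Set G) ≤ H)
    (e e' : Set (IrrCharacter H)) (he : IsPBlock M e) (he' : IsPBlock M e') (s s' : H) (hs : ¬ p ∣ orderOf s)
    (hs' : ¬ p ∣ orderOf s') :
    ∑ χ : IrrCharacter G, blockPart e (fun c : H => χ.1 (u * (c : G))) s
        * conj (blockPart e' (fun c : H => χ.1 (u * (c : G))) s')
      = ∑ ψ : IrrCharacter H, e.indicator (fun _ => (1 : ℂ)) ψ
          * (e'.indicator (fun _ => (1 : ℂ)) ψ * (ψ.1 s * conj (ψ.1 s'))) := by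
  classical
  have hne : (Nat.card H : ℂ) ≠ 0 := NeZero.ne _
  obtain ⟨ϑ, hϑ⟩ : ∃ ϑ : IrrCharacter G → H → ℂ, ϑ = fun χ c => χ.1 (u * (c : G)) := ⟨_, rfl⟩
  have hϑcf : ∀ χ, IsClassFunction H (ϑ χ) := by
    intro χ
    rw [hϑ]
    exact subsec_classFun H u hH1 χ
  obtain ⟨w, hw⟩ : ∃ w : IrrCharacter G → ℂ, w = fun χ => conj (blockPart e' (ϑ χ) s') :=
    ⟨_, rfl⟩
  obtain ⟨F, hF⟩ : ∃ F : H → ℂ, F = ∑ χ : IrrCharacter G, w χ • ϑ χ := ⟨_, rfl⟩
  obtain ⟨D, hD⟩ : ∃ D : H → ℂ, D = ∑ ψ : IrrCharacter H,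
      (e'.indicator (fun _ => (1 : ℂ)) ψ * conj (ψ.1 s')) • ψ.1 := ⟨_, rfl⟩
  have hDapp : ∀ c : H, D c = ∑ ψ : IrrCharacter H,
      e'.indicator (fun _ => (1 : ℂ)) ψ * (conj (ψ.1 s') * ψ.1 c) := by
    intro c
    rw [hD, Finset.sum_apply]
    apply Finset.sum_congr rfl
    intro ψ _
    simp only [Pi.smul_apply, smul_eq_mul]
    ring
  have hDcf : IsClassFunction H D := by
    rw [hD]
    apply isClassFunction_sum
    intro ψ _
    exact isClassFunction_smul _ (isClassFunction_irr ψ)
  have hFcf : IsClassFunction H F := by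
    rw [hF]
    apply isClassFunction_sum
    intro χ _
    exact isClassFunction_smul _ (hϑcf χ)
  have h1 : ∑ χ : IrrCharacter G, blockPart e (fun c : H => χ.1 (u * (c : G))) s
        * conj (blockPart e' (fun c : H => χ.1 (u * (c : G))) s') = blockPart e F s := by
    rw [hF, blockPart_sum_smul]
    apply Finset.sum_congr rfl
    intro χ _
    rw [hw, hϑ]
    ring
  have hDvan : ∀ c' : H, p ∣ orderOf c' → D c' = 0 := by
    intro c' hc'
    rw [hDapp]
    exact block_delta_vanish hM e' he' s' c' hs' hc'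
  have hwexp : ∀ χ : IrrCharacter G, w χ = (Nat.card H : ℂ)⁻¹ * ∑ c' : H,
      D c' * conj (χ.1 (u * (c' : G))) := by
    intro χ
    rw [hw]
    show conj (blockPart e' (ϑ χ) s') = _
    rw [blockPart_eq_ind, map_sum, Finset.mul_sum]
    have hterm : ∀ ψ : IrrCharacter H,
        conj (e'.indicator (fun _ => (1 : ℂ)) ψ * (classInner (ϑ χ) ψ.1 * ψ.1 s'))
          = ∑ c' : H, (Nat.card H : ℂ)⁻¹ * (e'.indicator (fun _ => (1 : ℂ)) ψ
            * (conj (ψ.1 s') * ψ.1 c') * conj (χ.1 (u * (c' : G)))) := by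
      intro ψ
      rw [map_mul, map_mul, ← classInner_conj_symm]
      have hi : conj (e'.indicator (fun _ => (1 : ℂ)) ψ) = e'.indicator (fun _ => (1 : ℂ)) ψ := by
        by_cases hψ : ψ ∈ e'
        · rw [Set.indicator_of_mem hψ, map_one]
        · rw [Set.indicator_of_notMem hψ, map_zero]
      rw [hi]
      unfold classInner
      rw [Finset.mul_sum, Finset.sum_mul, Finset.mul_sum]
      apply Finset.sum_congr rfl
      intro c' _
      rw [hϑ]
      ring
    rw [Finset.sum_congr rfl (fun ψ _ => hterm ψ), Finset.sum_comm]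
    apply Finset.sum_congr rfl
    intro c' _
    rw [hDapp, Finset.sum_mul, Finset.mul_sum]
  have h2 : ∀ c : H, ¬ p ∣ orderOf c → F c = D c := by
    intro c hc
    have hFc : F c = (Nat.card H : ℂ)⁻¹ * ∑ c' : H, D c' *
        ∑ χ : IrrCharacter G, χ.1 (u * (c : G)) * conj (χ.1 (u * (c' : G))) := by
      rw [hF, Finset.sum_apply]
      simp only [Pi.smul_apply, smul_eq_mul, hwexp]
      rw [Finset.mul_sum]
      simp only [Finset.mul_sum, Finset.sum_mul]
      rw [Finset.sum_comm]
      apply Finset.sum_congr rfl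
      intro c' _
      apply Finset.sum_congr rfl
      intro χ _
      rw [hϑ]
      ring
    have hDc : D c = (Nat.card H : ℂ)⁻¹ * ∑ c' : H, D c' *
        ∑ ψ : IrrCharacter H, ψ.1 c * conj (ψ.1 c') := by
      conv_lhs => rw [classFunction_expansion_apply hDcf c]
      unfold classInner
      simp only [Finset.mul_sum, Finset.sum_mul]
      rw [Finset.sum_comm]
      apply Finset.sum_congr rfl
      intro c' _
      apply Finset.sum_congr rfl
      intro ψ _
      ring
    rw [hFc, hDc]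
    congr 1
    apply Finset.sum_congr rfl
    intro c' _
    by_cases hc' : p ∣ orderOf c'
    · rw [hDvan c' hc', zero_mul, zero_mul]
    · rw [subsec_kernel H u hu hH1 hH2 c c' hc hc']
  have h3 : blockPart e F s = blockPart e D s := by
    have hvan : ∀ u' : H, IsPPart p u' 1 → (F - D) u' = 0 := by
      intro u' hu'
      show F u' - D u' = 0
      rw [h2 u' (regular_of_isPPart_one hu'), sub_self]
    have h := block_section hM (isClassFunction_sub hFcf hDcf) 1 hvan e he s
      (isPPart_one_of_regular s hs)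
    rw [blockPart_sub'] at h
    exact sub_eq_zero.mp h
  have h4 : blockPart e D s = ∑ ψ : IrrCharacter H, e.indicator (fun _ => (1 : ℂ)) ψ
      * (e'.indicator (fun _ => (1 : ℂ)) ψ * (ψ.1 s * conj (ψ.1 s'))) := by
    rw [hD, blockPart_sum_smul]
    apply Finset.sum_congr rfl
    intro ψ _
    by_cases hψ : ψ ∈ e
    · rw [blockPart_self e hψ, Set.indicator_of_mem hψ]
      ring
    · rw [Set.indicator_of_notMem hψ, zero_mul, blockPart_irr_of_notMem e hψ, mul_zero]
  rw [h1, h3, h4]

theorem subsec_weighted_vanish (hM : IsPModular p M) (u : G)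
    (hH1 : ∀ h : H, (h : G) * u = u * (h : G))
    (w : IrrCharacter G → ℂ)
    (hw : ∀ c : H, ¬ p ∣ orderOf c → ∑ χ : IrrCharacter G, w χ * χ.1 (u * (c : G)) = 0)
    (e : Set (IrrCharacter H)) (he : IsPBlock M e) (s : H) (hs : ¬ p ∣ orderOf s) :
    ∑ χ : IrrCharacter G, w χ * blockPart e (fun c : H => χ.1 (u * (c : G))) s = 0 := by
  classical
  rw [← blockPart_sum_smul]
  have hcf : IsClassFunction H (∑ χ : IrrCharacter G, w χ • fun c : H => χ.1 (u * (c : G))) := by
    apply isClassFunction_sum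
    intro χ _
    exact isClassFunction_smul _ (subsec_classFun H u hH1 χ)
  apply block_section hM hcf 1 _ e he s (isPPart_one_of_regular s hs)
  intro u' hu'
  rw [Finset.sum_apply]
  simp only [Pi.smul_apply, smul_eq_mul]
  exact hw u' (regular_of_isPPart_one hu')

end subsection2

end Cfsg.Agent.Lib.helper22
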